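/-
A group of type `(q, q)` acting fixed-point-freely with abelian fixed point subgroups: basic tools.
-/
import Mathlib
import Cfsg.Agent.Lib.MetacyclicP.FPFMain
import Cfsg.Agent.Lib.CoprimeAction.Basic
import Cfsg.Agent.Lib.PGroups.Frattini
import Cfsg.Agent.Lib.Hall.Existence
import Cfsg.Agent.Lib.Cores.PCore

set_option autoImplicit false
set_option linter.style.haveILetI false

open scoped Pointwise IsMulCommutative

namespace CfsgLib.RankTwoAbelian

open CfsgLib.MetacyclicP Cfsg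

/-- Frobenius-type averaging: if the fixed points of `e` are fixed by `X` then `X` acts trivially. -/
theorem fixed_forces_trivial {V X : Type*} [CommGroup V] [Finite V] [Group X] [Finite X]
    (hXc : ∀ x y : X, x * y = y * x) (α : X →* MulAut V) (e : MulAut V) (γ : MulAut X) {q : ℕ}
    (hq : 0 < q) (he : e ^ q = 1) (hcomp : ∀ x v, e (α x v) = α (γ x) (e v))
    (hγ : ∀ i, 0 < i → i < q → ∀ x, (γ ^ i) x = x → x = 1)
    (hcop : (Nat.card X).Coprime (Nat.card V)) (hfix : ∀ v, e v = v → ∀ x, α x v = v) :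
    ∀ x v, α x v = v := by
  classical
  haveI := Fintype.ofFinite X
  intro x v
  let D : V →* V := (α x).toMonoidHom / MonoidHom.id V
  have hD : ∀ u, D u = α x u / u := fun u => rfl
  have hcomm : ∀ (y : X) u, α y (D u) = D (α y u) := fun y u => by
    rw [hD, hD, map_div, ← MulAut.mul_apply, ← map_mul, hXc y x, map_mul, MulAut.mul_apply]
  have hpow : ∀ (i : ℕ) y u, (e ^ i) (α y u) = α ((γ ^ i) y) ((e ^ i) u) := by
    intro i
    induction i with
    | zero => intro y u; rfl
    | succ i ih =>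
      intro y u
      rw [pow_succ', pow_succ', MulAut.mul_apply, ih, hcomp]
      rfl
  have hsum : ∀ y : X, ∏ i ∈ Finset.range q, D (α (y⁻¹ * (γ ^ i) y) ((e ^ i) v)) = 1 := by
    intro y
    have hw : e (∏ i ∈ Finset.range q, (e ^ i) (α y v)) = ∏ i ∈ Finset.range q, (e ^ i) (α y v) := by
      obtain ⟨m, rfl⟩ : ∃ m, q = m + 1 := ⟨q - 1, by omega⟩
      rw [map_prod, Finset.prod_congr rfl (fun i _ => show e ((e ^ i) (α y v)) = (e ^ (i + 1)) (α y v) by
        rw [pow_succ', MulAut.mul_apply])]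
      rw [Finset.prod_range_succ, Finset.prod_range_succ' (fun i => (e ^ i) (α y v)), he, pow_zero]
    have h1 : D (∏ i ∈ Finset.range q, (e ^ i) (α y v)) = 1 := by
      rw [hD, hfix _ hw x, div_self']
    rw [map_prod] at h1
    have h2 := congrArg (α y⁻¹) h1
    rw [map_prod, map_one] at h2
    rw [← h2]
    refine Finset.prod_congr rfl fun i _ => ?_
    rw [hcomm, hpow, map_mul, MulAut.mul_apply]
  have hzero : ∀ i ∈ Finset.range q, i ≠ 0 →
      ∏ y : X, D (α (y⁻¹ * (γ ^ i) y) ((e ^ i) v)) = 1 := by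
    intro i hi hi0
    have hinj : Function.Injective fun y : X => y⁻¹ * (γ ^ i) y := by
      intro y z hyz
      have h1 : (γ ^ i) (z * y⁻¹) = z * y⁻¹ := by
        rw [map_mul, map_inv]
        have h2 : z⁻¹ * (γ ^ i) z = y⁻¹ * (γ ^ i) y := hyz.symm
        calc (γ ^ i) z * ((γ ^ i) y)⁻¹ = z * (z⁻¹ * (γ ^ i) z) * ((γ ^ i) y)⁻¹ := by group
          _ = z * (y⁻¹ * (γ ^ i) y) * ((γ ^ i) y)⁻¹ := by rw [h2]
          _ = z * y⁻¹ := by group
      exact (mul_inv_eq_one.1 (hγ i (Nat.pos_of_ne_zero hi0) (Finset.mem_range.1 hi) _ h1)).symm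
    rw [Fintype.prod_equiv (Equiv.ofBijective _ (Finite.injective_iff_bijective.1 hinj))
      (fun y => D (α (y⁻¹ * (γ ^ i) y) ((e ^ i) v))) (fun y => D (α y ((e ^ i) v))) (fun y => rfl)]
    rw [← map_prod, hD]
    have h3 : α x (∏ y : X, α y ((e ^ i) v)) = ∏ y : X, α y ((e ^ i) v) := by
      rw [map_prod]
      refine Fintype.prod_equiv (Equiv.mulLeft x) _ _ fun y => ?_
      rw [Equiv.coe_mulLeft, map_mul, MulAut.mul_apply]
    rw [h3, div_self']
  have htot : ∏ y : X, ∏ i ∈ Finset.range q, D (α (y⁻¹ * (γ ^ i) y) ((e ^ i) v)) = 1 :=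
    Finset.prod_eq_one fun y _ => hsum y
  rw [Finset.prod_comm, Finset.prod_eq_single 0 hzero
    (fun h => absurd (Finset.mem_range.2 hq) h)] at htot
  simp only [pow_zero, MulAut.one_apply, inv_mul_cancel, map_one, Finset.prod_const,
    Finset.card_univ] at htot
  have h4 : D v = 1 := by
    rw [← Nat.card_eq_fintype_card] at htot
    have h5 := (pow_gcd_eq_one (a := D v)).2 ⟨htot, pow_card_eq_one' (x := D v)⟩
    rwa [Nat.Coprime.gcd_eq_one hcop, pow_one] at h5
  rwa [hD, div_eq_one] at h4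

variable {A G : Type*} [Group A] [Group G]

/-- Standing hypotheses: a fixed-point-free action of type `(q, q)` with abelian fixed point groups. -/
structure Hyp (φ : A →* MulAut G) (q : ℕ) : Prop where
  rank : IsRankTwo A q
  fpf : ∀ g, (∀ a, φ a g = g) → g = 1
  comm : ∀ a : A, a ≠ 1 → ∀ x y, φ a x = x → φ a y = y → x * y = y * x

variable {φ : A →* MulAut G}

theorem inv_inf {X Y : Subgroup G} (hX : Inv φ X) (hY : Inv φ Y) : Inv φ (X ⊓ Y) :=
  fun a x hx => ⟨hX a x hx.1, hY a x hx.2⟩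

theorem inv_bot : Inv φ (⊥ : Subgroup G) := fun a x hx => by
  rw [Subgroup.mem_bot] at hx ⊢
  rw [hx, map_one]

theorem inv_top : Inv φ (⊤ : Subgroup G) := fun _ x _ => Subgroup.mem_top _

theorem inv_sup {X Y : Subgroup G} (hX : Inv φ X) (hY : Inv φ Y) : Inv φ (X ⊔ Y) := by
  intro a x hx
  have h : X ⊔ Y ≤ (X ⊔ Y).comap (φ a).toMonoidHom :=
    sup_le (fun z hz => Subgroup.mem_sup_left (hX a z hz)) (fun z hz => Subgroup.mem_sup_right (hY a z hz))
  exact h hx

theorem map_eq_of_inv {X : Subgroup G} (hX : Inv φ X) (a : A) : X.map (φ a).toMonoidHom = X :=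
  inv_map_eq φ hX a

theorem inv_normalizer {X : Subgroup G} (hX : Inv φ X) : Inv φ (Subgroup.normalizer (X : Set G)) := by
  intro a x hx
  refine Subgroup.mem_normalizer_iff.2 fun y => ?_
  obtain ⟨z, rfl⟩ := (φ a).surjective y
  have hiff : ∀ w, w ∈ X ↔ φ a w ∈ X := fun w => ⟨hX a w, fun h => by
    have h1 := hX a⁻¹ _ h
    rwa [← MulAut.mul_apply, ← map_mul, inv_mul_cancel, map_one, MulAut.one_apply] at h1⟩
  rw [← hiff, Subgroup.mem_normalizer_iff.1 hx z, hiff, map_mul, map_mul, map_inv]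

theorem inv_centralizer {X : Subgroup G} (hX : Inv φ X) :
    Inv φ (Subgroup.centralizer (X : Set G)) := by
  intro a x hx
  refine Subgroup.mem_centralizer_iff.2 fun y hy => ?_
  have h2 : φ a (φ a⁻¹ y) = y := by
    rw [← MulAut.mul_apply, ← map_mul, mul_inv_cancel, map_one, MulAut.one_apply]
  rw [← h2, ← map_mul, ← map_mul, Subgroup.mem_centralizer_iff.1 hx _ (hX a⁻¹ y hy)]

theorem inv_fixSub (hA : ∀ a b : A, a * b = b * a) (a : A) : Inv φ (fixSub φ a) := by
  intro b x hx
  rw [mem_fixSub] at hx ⊢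
  rw [← MulAut.mul_apply, ← map_mul, hA, map_mul, MulAut.mul_apply, hx]

theorem inv_map_subtype {M : Subgroup G} (hM : Inv φ M) (X : Subgroup M) [X.Characteristic] :
    Inv φ (X.map M.subtype) := by
  rintro a _ ⟨x, hx, rfl⟩
  exact ⟨_, inv_of_characteristic (restrictAct φ M hM) X a x hx, rfl⟩

section Facts

variable [Finite A] [Finite G] {q : ℕ}

theorem Hyp.fact (h : Hyp φ q) : Fact q.Prime := ⟨h.rank.prime⟩

theorem Hyp.not_dvd (h : Hyp φ q) : ¬ q ∣ Nat.card G :=
  haveI := h.fact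
  not_dvd_card_of_fpf φ h.rank.isPGroup h.fpf

theorem Hyp.restrict (h : Hyp φ q) {M : Subgroup G} (hM : Inv φ M) : Hyp (restrictAct φ M hM) q :=
  ⟨h.rank, fun g hg => Subtype.ext (h.fpf g fun a => congrArg Subtype.val (hg a)),
    fun a ha x y hx hy => Subtype.ext (h.comm a ha x y (congrArg Subtype.val hx) (congrArg Subtype.val hy))⟩

theorem isPGroup_fixed_point_nonempty (hA : IsPGroup q A) [Fact q.Prime] {α : Type*} [Finite α]
    [MulAction A α] (h : ¬ q ∣ Nat.card α) : ∃ x : α, ∀ a : A, a • x = x :=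
  hA.nonempty_fixed_point_of_prime_not_dvd_card α h

/-- Invariant Sylow subgroups exist for a coprime `q`-group action. -/
theorem exists_inv_sylow [Fact q.Prime] (hA : IsPGroup q A) (hcop : ¬ q ∣ Nat.card G) (φ : A →* MulAut G)
    (p : ℕ) [Fact p.Prime] : ∃ P : Sylow p G, Inv φ (P : Subgroup G) := by
  letI : MulAction A (Sylow p G) := MulAction.compHom _ φ
  obtain ⟨P₀⟩ := (Sylow.nonempty : Nonempty (Sylow p G))
  obtain ⟨P, hP⟩ := isPGroup_fixed_point_nonempty hA (α := Sylow p G)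
    fun hd => hcop ((hd.trans P₀.card_dvd_index).trans (P₀ : Subgroup G).index_dvd_card)
  refine ⟨P, fun a x hx => ?_⟩
  have h1 := hP a
  have h2 : φ a x ∈ ((φ a • P : Sylow p G) : Subgroup G) := by
    rw [Sylow.pointwise_smul_def]
    exact Subgroup.smul_mem_pointwise_smul x (φ a) _ hx
  exact (congrArg (fun S : Sylow p G => (S : Subgroup G)) h1) ▸ h2

theorem inv_sylow_unique (h : Hyp φ q) {p : ℕ} [Fact p.Prime] {P P' : Sylow p G}
    (hP : Inv φ (P : Subgroup G)) (hP' : Inv φ (P' : Subgroup G)) : P = P' := by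
  haveI := h.fact
  obtain ⟨g, hg⟩ := MulAction.exists_smul_eq G P P'
  set N := Subgroup.normalizer ((P : Subgroup G) : Set G) with hN
  have hkey : ∀ a, g⁻¹ * φ a g ∈ N := by
    intro a
    refine CoprimeAction.mem_normalizer_of_conj_mem fun x hx => ?_
    obtain ⟨y, hy, rfl⟩ : ∃ y ∈ (P : Subgroup G), φ a y = x :=
      ⟨φ a⁻¹ x, hP a⁻¹ x hx, by rw [← MulAut.mul_apply, ← map_mul, mul_inv_cancel, map_one, MulAut.one_apply]⟩
    have h1 : g * y * g⁻¹ ∈ (P' : Subgroup G) := by
      rw [← hg, Sylow.coe_subgroup_smul]; exact ⟨y, hy, rfl⟩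
    have h2 := hP' a _ h1
    rw [← hg, Sylow.coe_subgroup_smul] at h2
    obtain ⟨z, hz, hze⟩ := h2
    have hze' : g * z * g⁻¹ = φ a g * φ a y * (φ a g)⁻¹ := by
      rw [← map_inv, ← map_mul, ← map_mul]; exact hze
    have e : g⁻¹ * φ a g * φ a y * (g⁻¹ * φ a g)⁻¹ = z := by
      calc g⁻¹ * φ a g * φ a y * (g⁻¹ * φ a g)⁻¹ = g⁻¹ * (φ a g * φ a y * (φ a g)⁻¹) * g := by group
        _ = g⁻¹ * (g * z * g⁻¹) * g := by rw [hze']
        _ = z := by group
    rwa [e]
  obtain ⟨c, hc, hcfix⟩ := exists_fixed_mem_coset φ ⊤ (h.rank.isPGroup.to_subgroup _) N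
    (fun a _ => inv_normalizer hP a)
    (fun hd => h.not_dvd (hd.trans N.card_subgroup_dvd_card)) g (fun a _ => hkey a)
  rw [h.fpf c (fun a => hcfix a (Subgroup.mem_top a)), mul_one] at hc
  rw [← hg]
  exact (Sylow.smul_eq_iff_mem_normalizer.2 (inv_mem_iff.1 hc)).symm

theorem le_inv_sylow (h : Hyp φ q) {p : ℕ} [Fact p.Prime] {P : Sylow p G}
    (hP : Inv φ (P : Subgroup G)) {U : Subgroup G} (hU : IsPGroup p U) (hUi : Inv φ U) :
    U ≤ (P : Subgroup G) := by
  haveI := h.fact
  obtain ⟨V, hUV, hV⟩ := Set.Finite.exists_le_maximal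
    (Set.toFinite {V : Subgroup G | IsPGroup p V ∧ Inv φ V}) (show U ∈ _ from ⟨hU, hUi⟩)
  obtain ⟨hVp, hVi⟩ := hV.prop
  obtain ⟨T, hVT⟩ := hVp.exists_le_sylow
  suffices hVeq : V = T by
    have h1 : Inv φ (T : Subgroup G) := hVeq ▸ hVi
    rw [inv_sylow_unique h hP h1]
    exact hUV.trans hVT
  by_contra hne
  set N := Subgroup.normalizer (V : Set G) with hN
  have hgt : ∃ Q : Subgroup G, IsPGroup p Q ∧ Q ≤ N ∧ Nat.card V < Nat.card Q := by
    haveI := T.isPGroup'.isNilpotent
    obtain ⟨u, hu, hu'⟩ := SetLike.exists_of_lt (Group.normalizerCondition_of_isNilpotent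
      (V.subgroupOf T) (lt_top_iff_ne_top.2 fun e => hne (le_antisymm hVT (Subgroup.subgroupOf_eq_top.1 e))))
    refine ⟨(T : Subgroup G) ⊓ N, T.isPGroup'.to_le inf_le_left, inf_le_right, ?_⟩
    have hle : V ≤ (T : Subgroup G) ⊓ N := le_inf hVT Subgroup.le_normalizer
    refine lt_of_le_of_ne (Subgroup.card_le_of_le hle) fun e => hu' ?_
    rw [Subgroup.mem_subgroupOf, Subgroup.eq_of_le_of_card_ge hle e.ge]
    exact ⟨u.2, CoprimeAction.mem_normalizer_of_conj_mem fun x hx =>
      (Subgroup.mem_normalizer_iff.1 hu ⟨x, hVT hx⟩).1 hx⟩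
  obtain ⟨Q, hQ, hQN, hlt⟩ := hgt
  have hNi : Inv φ N := inv_normalizer hVi
  obtain ⟨S, hS⟩ := exists_inv_sylow h.rank.isPGroup
    (fun hd => h.not_dvd (hd.trans N.card_subgroup_dvd_card)) (restrictAct φ N hNi) p
  have hSi : Inv φ ((S : Subgroup N).map N.subtype) := by
    rintro a _ ⟨x, hx, rfl⟩; exact ⟨_, hS a x hx, rfl⟩
  have hVS : V ≤ (S : Subgroup N).map N.subtype := by
    haveI : (V.subgroupOf N).Normal := Subgroup.normal_in_normalizer
    intro v hv
    exact ⟨⟨v, Subgroup.le_normalizer hv⟩,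
      ((hVp.comap_of_injective N.subtype N.subtype_injective).le_sylow_of_normal (N := V.subgroupOf N) S) hv, rfl⟩
  have heq := le_antisymm hVS (hV.le_of_ge ⟨S.isPGroup'.map _, hSi⟩ hVS)
  obtain ⟨S', hS'⟩ := (hQ.comap_of_injective N.subtype N.subtype_injective).exists_le_sylow
  have h1 := Subgroup.card_le_of_le hS'
  have h2 : Nat.card (Q.comap N.subtype) = Nat.card Q :=
    Nat.card_congr (Subgroup.subgroupOfEquivOfLe hQN).toEquiv
  rw [h2, Nat.card_congr (S'.equiv S).toEquiv, ← Subgroup.card_map_of_injective N.subtype_injective,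
    ← heq] at h1
  omega

theorem card_sylow_inf (h : Hyp φ q) {p : ℕ} [Fact p.Prime] {P : Sylow p G}
    (hP : Inv φ (P : Subgroup G)) {M : Subgroup G} (hM : Inv φ M) :
    Nat.card ((P : Subgroup G) ⊓ M : Subgroup G) = p ^ (Nat.card M).factorization p := by
  haveI := h.fact
  obtain ⟨S, hS⟩ := exists_inv_sylow h.rank.isPGroup
    (fun hd => h.not_dvd (hd.trans M.card_subgroup_dvd_card)) (restrictAct φ M hM) p
  have hSi : Inv φ ((S : Subgroup M).map M.subtype) := by
    rintro a _ ⟨x, hx, rfl⟩; exact ⟨_, hS a x hx, rfl⟩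
  have hle : (S : Subgroup M).map M.subtype ≤ (P : Subgroup G) ⊓ M :=
    le_inf (le_inv_sylow h hP (S.isPGroup'.map _) hSi) (Subgroup.map_subtype_le _)
  have hp : IsPGroup p ((P : Subgroup G) ⊓ M : Subgroup G) := P.isPGroup'.to_le inf_le_left
  rw [← S.card_eq_multiplicity]
  refine le_antisymm ?_ ?_
  · obtain ⟨S', hS'⟩ := (hp.comap_of_injective M.subtype M.subtype_injective).exists_le_sylow
    have h1 := Subgroup.card_le_of_le hS'
    rwa [show Nat.card (((P : Subgroup G) ⊓ M).comap M.subtype) = Nat.card ((P : Subgroup G) ⊓ M : Subgroup G)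
        from Nat.card_congr (Subgroup.subgroupOfEquivOfLe inf_le_right).toEquiv,
      Nat.card_congr (S'.equiv S).toEquiv] at h1
  · have h1 := Subgroup.card_le_of_le hle
    rwa [Subgroup.card_map_of_injective M.subtype_injective] at h1

theorem gen_le (h : Hyp φ q) {K : Subgroup G} (hK : Inv φ K) [Group.IsSolvable K] {C : Subgroup G}
    (hC : ∀ a : A, a ≠ 1 → ∀ g ∈ K, φ a g = g → g ∈ C) : K ≤ C := by
  haveI := h.fact
  have h1 := (h.restrict hK).rank.gen_solvable (restrictAct φ K hK)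
    ((h.rank.prime.coprime_iff_not_dvd.2 fun hd => h.not_dvd (hd.trans K.card_subgroup_dvd_card)).symm)
    (C.comap K.subtype) (fun a ha g hg => hC a ha g g.2 (congrArg Subtype.val hg))
  intro g hg
  exact (h1.ge (Subgroup.mem_top (⟨g, hg⟩ : K)) :)

/-- A subgroup containing the invariant Sylow `s`-part of `K` for each prime contains `K`. -/
theorem le_of_sylow_parts {K C : Subgroup G}
    (hC : ∀ (s : ℕ) (_ : Fact s.Prime), s ∣ Nat.card K →
      ∃ S : Subgroup G, S ≤ K ⊓ C ∧ Nat.card S = s ^ (Nat.card K).factorization s) : K ≤ C := by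
  have hdvd : Nat.card K ∣ Nat.card (K ⊓ C : Subgroup G) := by
    rw [← Nat.factorization_le_iff_dvd Nat.card_pos.ne' Nat.card_pos.ne']
    intro s
    by_cases hs : s.Prime ∧ s ∣ Nat.card K
    · obtain ⟨S, hS, hcard⟩ := hC s ⟨hs.1⟩ hs.2
      exact (hs.1.pow_dvd_iff_le_factorization Nat.card_pos.ne').1 (hcard ▸ Subgroup.card_dvd_of_le hS)
    · rw [not_and_or] at hs
      rcases hs with hs | hs
      · simp [Nat.factorization_eq_zero_of_not_prime _ hs]
      · simp [Nat.factorization_eq_zero_of_not_dvd hs]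
  exact inf_eq_left.1 (Subgroup.eq_of_le_of_card_ge inf_le_left (Nat.le_of_dvd Nat.card_pos hdvd))

/-- The lemma on lines: a group fixed by `a` centralising the `b`-fixed points of `Y` centralises `Y`. -/
theorem line_lemma (h : Hyp φ q) {p : ℕ} [Fact p.Prime] {Y X : Subgroup G} (hY : IsPGroup p Y)
    (hYi : Inv φ Y) (hXi : Inv φ X) (hXY : X ≤ Subgroup.normalizer (Y : Set G))
    (hcop : ¬ p ∣ Nat.card X) {a b : A} (hab : Indep a b) (hXa : ∀ x ∈ X, φ a x = x)
    (hC : ∀ y ∈ Y, φ b y = y → ∀ x ∈ X, x * y = y * x) : ∀ x ∈ X, ∀ y ∈ Y, x * y = y * x := by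
  classical
  haveI := h.fact
  have hXc : ∀ x y : X, x * y = y * x := fun x y =>
    Subtype.ext (h.comm a hab.1 x y (hXa x x.2) (hXa y y.2))
  haveI : (frattini Y).Normal := inferInstance
  letI : CommGroup (Y ⧸ frattini Y) :=
    { (inferInstance : Group (Y ⧸ frattini Y)) with
      mul_comm := fun u v => by
        induction u using QuotientGroup.induction_on with | _ u =>
        induction v using QuotientGroup.induction_on with | _ v =>
        rw [← QuotientGroup.mk_mul, ← QuotientGroup.mk_mul, QuotientGroup.eq]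
        have h1 := CfsgLib.PGroups.commutator_le_frattini hY
          (Subgroup.commutator_mem_commutator (Subgroup.mem_top v⁻¹) (Subgroup.mem_top u⁻¹))
        rw [commutatorElement_def] at h1
        simpa [mul_assoc] using h1 }
  let αY : X →* MulAut Y := (Subgroup.normalizerMonoidHom Y).comp (Subgroup.inclusion hXY)
  let αV := quotAct αY (frattini Y) (inv_of_characteristic αY _)
  let ψ := quotAct (restrictAct φ Y hYi) (frattini Y) (inv_of_characteristic _ _)
  let γ := restrictAct φ X hXi b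
  have hb1 : b ≠ 1 := fun e => hab.2 (e ▸ Subgroup.one_mem _)
  have hγ : ∀ (i : ℕ) (x : X), (((γ ^ i) x : X) : G) = φ (b ^ i) x := by
    intro i x
    show ((((restrictAct φ X hXi) b) ^ i) x : G) = _
    rw [← map_pow]
    rfl
  have hkey : ∀ (x : X) v, αV x v = v := by
    refine fixed_forces_trivial hXc αV (ψ b) γ h.rank.prime.pos
      (by rw [← map_pow, h.rank.exp, map_one]) ?_ ?_ ?_ ?_
    · intro x v
      induction v using QuotientGroup.induction_on with | _ u =>
      show ((_ : Y) : Y ⧸ frattini Y) = ((_ : Y) : Y ⧸ frattini Y)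
      congr 1
      refine Subtype.ext ?_
      show φ b ((x : G) * u * (x : G)⁻¹) = φ b (x : G) * φ b u * (φ b (x : G))⁻¹
      rw [map_mul, map_mul, map_inv]
    · intro i hi hiq x hx
      have hfixb : φ (b ^ i) (x : G) = x := by rw [← hγ, hx]
      have hbi : b ^ i ≠ 1 := fun e => by
        have := orderOf_dvd_of_pow_eq_one e
        rw [h.rank.orderOf_eq hb1] at this
        exact absurd (Nat.le_of_dvd hi this) (not_le.2 hiq)
      have hbx : φ b (x : G) = x :=
        h.rank.fix_of_pow_fix hb1 (Subgroup.npow_mem_zpowers b i) hbi hfixb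
      exact Subtype.ext (h.fpf x (h.rank.fix_both hab (hXa x x.2) hbx))
    · obtain ⟨k, hk⟩ := IsPGroup.iff_card.1 hY
      refine Nat.Coprime.coprime_dvd_right (Subgroup.card_quotient_dvd_card _) ?_
      rw [hk]
      exact ((Fact.out : p.Prime).coprime_iff_not_dvd.2 hcop).symm.pow_right k
    · intro v hv x
      obtain ⟨y, rfl, hy⟩ := fixed_quot (restrictAct φ Y hYi) h.rank.isPGroup
        (fun hd => h.not_dvd (hd.trans Y.card_subgroup_dvd_card)) (frattini Y)
        (inv_of_characteristic _ _) (Subgroup.zpowers b) v (fun c hc => fix_of_mem_zpowers hc hv)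
      show ((αY x y : Y) : Y ⧸ frattini Y) = (y : Y ⧸ frattini Y)
      congr 1
      refine Subtype.ext ?_
      show (x : G) * y * (x : G)⁻¹ = y
      rw [hC y y.2 (congrArg Subtype.val (hy b (Subgroup.mem_zpowers b))) x x.2, mul_inv_cancel_right]
  have hle : X ≤ Subgroup.centralizer (Y : Set G) := by
    refine CoprimeAction.le_centralizer_of_frattini hXY ?_ fun x hx y hy => ?_
    · obtain ⟨k, hk⟩ := IsPGroup.iff_card.1 hY
      refine Nat.Coprime.coprime_dvd_right (frattini Y).card_subgroup_dvd_card ?_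
      rw [hk]
      exact ((Fact.out : p.Prime).coprime_iff_not_dvd.2 hcop).symm.pow_right k
    · have h1 := hkey ⟨x, hx⟩ ((⟨y, hy⟩ : Y) : Y ⧸ frattini Y)
      have h2 := QuotientGroup.eq.1 h1.symm
      exact ⟨_, h2, rfl⟩
  exact fun x hx y hy => (Subgroup.mem_centralizer_iff.1 (hle hx) y hy).symm

/-! ### Two-prime parts -/

/-- All prime divisors of the order are `p` or `r`. -/
def IsPR (p r : ℕ) (K : Subgroup G) : Prop := ∀ s : ℕ, s.Prime → s ∣ Nat.card K → s = p ∨ s = r

omit [Finite A] in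
theorem IsPR.of_le {p r : ℕ} {K L : Subgroup G} (hL : IsPR p r L) (hKL : K ≤ L) : IsPR p r K :=
  fun s hs hd => hL s hs (hd.trans (Subgroup.card_dvd_of_le hKL))

theorem eq_sup_of_isPR (h : Hyp φ q) {p r : ℕ} [Fact p.Prime] [Fact r.Prime] {P : Sylow p G}
    {R : Sylow r G} (hP : Inv φ (P : Subgroup G)) (hR : Inv φ (R : Subgroup G)) {K : Subgroup G}
    (hK : Inv φ K) (hPR : IsPR p r K) :
    ((P : Subgroup G) ⊓ K) ⊔ ((R : Subgroup G) ⊓ K) = K := by
  refine le_antisymm (sup_le inf_le_right inf_le_right) (le_of_sylow_parts fun s hs hd => ?_)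
  rcases hPR s hs.out hd with rfl | rfl
  · exact ⟨_, le_inf inf_le_right le_sup_left, card_sylow_inf h hP hK⟩
  · exact ⟨_, le_inf inf_le_right le_sup_right, card_sylow_inf h hR hK⟩

/-- In a solvable invariant subgroup the invariant Sylow parts for two primes generate a Hall subgroup. -/
theorem isPR_prPart (h : Hyp φ q) {p r : ℕ} [Fact p.Prime] [Fact r.Prime] {P : Sylow p G}
    {R : Sylow r G} (hP : Inv φ (P : Subgroup G)) (hR : Inv φ (R : Subgroup G)) {M : Subgroup G}
    (hM : Inv φ M) [Group.IsSolvable M] :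
    IsPR p r (((P : Subgroup G) ⊓ M) ⊔ ((R : Subgroup G) ⊓ M)) := by
  classical
  haveI := h.fact
  set π : Set ℕ := {p, r} with hπ
  obtain ⟨H₀, hH₀⟩ := CfsgLib.Hall.exists_isPiHall (G := M) π
  let X := {H : Subgroup M // IsPiHall π H}
  letI : MulAction M (Subgroup M) := MulAction.compHom _ (MulAut.conj : M →* MulAut M)
  have hX : ∀ H : Subgroup M, IsPiHall π H ↔ H ∈ MulAction.orbit M H₀ := by
    intro H
    constructor
    · intro hH
      obtain ⟨g, hg⟩ := CfsgLib.Hall.isPiHall_isConj hH₀ hH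
      exact ⟨g, hg⟩
    · rintro ⟨g, rfl⟩
      have hc : Nat.card ↥(MulAut.conj g • H₀) = Nat.card H₀ := CoprimeAction.card_conj_smul g H₀
      have hi : (MulAut.conj g • H₀).index = H₀.index := by
        have h1 := (MulAut.conj g • H₀).card_mul_index
        rw [hc, ← H₀.card_mul_index] at h1
        exact Nat.eq_of_mul_eq_mul_left Nat.card_pos h1
      show IsPiHall π (MulAut.conj g • H₀)
      unfold IsPiHall at hH₀ ⊢
      rw [hc, hi]
      exact hH₀
  have hcardX : Nat.card X ∣ Nat.card M := by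
    rw [Nat.card_congr (Equiv.subtypeEquivRight hX),
      Nat.card_congr (MulAction.orbitEquivQuotientStabilizer M H₀)]
    exact Subgroup.index_dvd_card _
  let ρ := restrictAct φ M hM
  have hmap : ∀ (a : A) (H : Subgroup M), IsPiHall π H → IsPiHall π (H.map (ρ a).toMonoidHom) := by
    intro a H hH
    unfold IsPiHall at hH ⊢
    rw [Subgroup.card_map_of_injective (ρ a).injective,
      Subgroup.index_map_of_bijective (ρ a).bijective]
    exact hH
  letI actX : MulAction A X :=
    { smul := fun a H => ⟨H.1.map (ρ a).toMonoidHom, hmap a _ H.2⟩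
      one_smul := fun H => Subtype.ext (by
        show H.1.map (ρ 1).toMonoidHom = H.1
        rw [map_one]; exact Subgroup.map_id _)
      mul_smul := fun a b H => Subtype.ext (by
        show H.1.map (ρ (a * b)).toMonoidHom = (H.1.map (ρ b).toMonoidHom).map (ρ a).toMonoidHom
        rw [Subgroup.map_map, map_mul]; rfl) }
  obtain ⟨⟨H, hH⟩, hfix⟩ := isPGroup_fixed_point_nonempty h.rank.isPGroup (α := X)
    fun hd => h.not_dvd ((hd.trans hcardX).trans M.card_subgroup_dvd_card)
  set H' := H.map M.subtype with hH'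
  have hH'i : Inv φ H' := by
    rintro a _ ⟨x, hx, rfl⟩
    have h1 : H.map (ρ a).toMonoidHom = H := congrArg Subtype.val (hfix a)
    exact ⟨ρ a x, h1.le ⟨x, hx, rfl⟩, rfl⟩
  have hcardH' : Nat.card H' = Nat.card H := Subgroup.card_map_of_injective M.subtype_injective
  have hH'pr : IsPR p r H' := by
    intro s hs hd
    rw [hcardH'] at hd
    simpa [hπ] using hH.1 s hs hd
  have hfac : ∀ s : ℕ, s.Prime → (s = p ∨ s = r) →
      (Nat.card H').factorization s = (Nat.card M).factorization s := by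
    intro s hs hsπ
    have hni : ¬ s ∣ H.index := fun hd => hH.2 s hs (by simpa [hπ] using hsπ) hd
    rw [hcardH', ← H.card_mul_index, Nat.factorization_mul Nat.card_pos.ne'
      Subgroup.index_ne_zero_of_finite, Finsupp.add_apply, Nat.factorization_eq_zero_of_not_dvd hni,
      add_zero]
  have hPle : (P : Subgroup G) ⊓ M ≤ H' := by
    have e : (P : Subgroup G) ⊓ H' = (P : Subgroup G) ⊓ M :=
      Subgroup.eq_of_le_of_card_ge (inf_le_inf_left _ (Subgroup.map_subtype_le _)) (by
        rw [card_sylow_inf h hP hH'i, card_sylow_inf h hP hM, hfac p Fact.out (Or.inl rfl)])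
    exact e ▸ inf_le_right
  have hRle : (R : Subgroup G) ⊓ M ≤ H' := by
    have e : (R : Subgroup G) ⊓ H' = (R : Subgroup G) ⊓ M :=
      Subgroup.eq_of_le_of_card_ge (inf_le_inf_left _ (Subgroup.map_subtype_le _)) (by
        rw [card_sylow_inf h hR hH'i, card_sylow_inf h hR hM, hfac r Fact.out (Or.inr rfl)])
    exact e ▸ inf_le_right
  exact hH'pr.of_le (sup_le hPle hRle)

end Facts

end CfsgLib.RankTwoAbelian
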