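/-
A group admitting a coprime action of type `(q, q)` with abelian fixed point subgroups is solvable.
-/
import Mathlib
import Cfsg.Agent.Lib.RankTwoAbelian.Basic
import Cfsg.Agent.Lib.NormalPComplement.Thompson
import Cfsg.Agent.Lib.Balance.CentralizerCore
import Cfsg.Agent.Lib.ThompsonJ.Basic
import Cfsg.Agent.Lib.FixedPointFree.Basic
import Cfsg.Agent.S0021

set_option autoImplicit false
set_option linter.style.haveILetI false

open scoped Pointwise IsMulCommutative

namespace CfsgLib.RankTwoAbelian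

open CfsgLib.MetacyclicP Cfsg

variable {A G : Type*} [Group A] [Group G] [Finite A] [Finite G] {φ : A →* MulAut G} {q : ℕ}

/-- The core of a subgroup, in the ambient group. -/
def core (p : ℕ) (H : Subgroup G) : Subgroup G := (pCore p H).map H.subtype

omit [Finite A] [Finite G] in
theorem core_le (p : ℕ) (H : Subgroup G) : core p H ≤ H := Subgroup.map_subtype_le _

omit [Finite A] in
theorem isPGroup_core (p : ℕ) [Fact p.Prime] (H : Subgroup G) : IsPGroup p (core p H) :=
  (CfsgLib.Cores.isPGroup_pCore p H).map _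

omit [Finite A] [Finite G] in
theorem inv_core {p : ℕ} {H : Subgroup G} (hH : Inv φ H) : Inv φ (core p H) :=
  inv_map_subtype hH _

omit [Finite A] in
theorem le_normalizer_core (p : ℕ) (H : Subgroup G) :
    H ≤ Subgroup.normalizer (core p H : Set G) := by
  intro h hh
  refine CoprimeAction.mem_normalizer_of_conj_mem ?_
  rintro _ ⟨x, hx, rfl⟩
  exact ⟨⟨h, hh⟩ * x * ⟨h, hh⟩⁻¹, (inferInstance : (pCore p H).Normal).conj_mem x hx _, rfl⟩

omit [Finite A] [Finite G] in
theorem le_core {p : ℕ} {H N : Subgroup G} (hN : N ≤ H) (hHN : H ≤ Subgroup.normalizer (N : Set G))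
    (hp : IsPGroup p N) : N ≤ core p H := by
  intro x hx
  haveI : (N.subgroupOf H).Normal := (Subgroup.normal_subgroupOf_iff_le_normalizer hN).2 hHN
  exact ⟨⟨x, hN hx⟩, CfsgLib.Cores.le_pCore (N := N.subgroupOf H)
    (hp.comap_of_injective H.subtype H.subtype_injective) hx, rfl⟩

omit [Finite A] in
theorem commute_of_disjoint_pr {p r : ℕ} [Fact p.Prime] [Fact r.Prime] (hpr : p ≠ r) {X Y : Subgroup G}
    (hX : IsPGroup p X) (hY : IsPGroup r Y) {x y : G} (hx : x ∈ X) (hy : y ∈ Y)
    (hxY : x * y * x⁻¹ ∈ Y) (hyX : y * x⁻¹ * y⁻¹ ∈ X) : x * y = y * x := by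
  have h1 : x * y * x⁻¹ * y⁻¹ ∈ X ⊓ Y :=
    ⟨by simpa [mul_assoc] using X.mul_mem hx hyX, Y.mul_mem hxY (Y.inv_mem hy)⟩
  rw [(IsPGroup.disjoint_of_ne p r hpr _ _ hX hY).eq_bot, Subgroup.mem_bot, mul_inv_eq_one,
    mul_inv_eq_iff_eq_mul] at h1
  exact h1

omit [Finite A] in
theorem core_commute {p r : ℕ} [Fact p.Prime] [Fact r.Prime] (hpr : p ≠ r) (H : Subgroup G) :
    core p H ≤ Subgroup.centralizer (core r H : Set G) := by
  intro x hx
  refine Subgroup.mem_centralizer_iff.2 fun y hy => (commute_of_disjoint_pr hpr (isPGroup_core p H)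
    (isPGroup_core r H) hx hy ?_ ?_).symm
  · exact (Subgroup.mem_normalizer_iff.1 (le_normalizer_core r H (core_le p H hx)) y).1 hy
  · exact (Subgroup.mem_normalizer_iff.1 (le_normalizer_core p H (core_le r H hy)) x⁻¹).1 (inv_mem hx)

/-- The invariant part for two primes. -/
def prPart {p r : ℕ} (P : Sylow p G) (R : Sylow r G) (M : Subgroup G) : Subgroup G :=
  ((P : Subgroup G) ⊓ M) ⊔ ((R : Subgroup G) ⊓ M)

/-- `Inv` and two primes and proper. -/
def InFam (φ : A →* MulAut G) (p r : ℕ) (K : Subgroup G) : Prop :=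
  Inv φ K ∧ IsPR p r K ∧ K ≠ ⊤

omit [Finite A] [Finite G] in
theorem IsPR.swap {p r : ℕ} {K : Subgroup G} (h : IsPR p r K) : IsPR r p K :=
  fun s hs hd => (h s hs hd).symm

/-- The minimal counterexample. -/
structure MinHyp (φ : A →* MulAut G) (q : ℕ) : Prop extends Hyp φ q where
  solv : ∀ M : Subgroup G, Inv φ M → M ≠ ⊤ → Group.IsSolvable M
  simple : ∀ N : Subgroup G, N.Normal → Inv φ N → N = ⊥ ∨ N = ⊤
  nonsolv : ¬ Group.IsSolvable G

namespace MinHyp

variable (h : MinHyp φ q)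
include h

omit [Finite A] [Finite G] in
theorem ne_top_of_isSolvable {X : Subgroup G} (hX : Group.IsSolvable X) : X ≠ ⊤ := by
  rintro rfl
  exact h.nonsolv (Group.isSolvable_of_surjective (f := (Subgroup.topEquiv (G := G)).toMonoidHom)
    (Subgroup.topEquiv (G := G)).surjective)

theorem ne_top_of_isPGroup {p : ℕ} [Fact p.Prime] {X : Subgroup G} (hX : IsPGroup p X) : X ≠ ⊤ :=
  haveI := hX.isNilpotent
  h.ne_top_of_isSolvable inferInstance

theorem normalizer_ne_top {p : ℕ} [Fact p.Prime] {X : Subgroup G} (hX : IsPGroup p X) (hi : Inv φ X)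
    (hne : X ≠ ⊥) : Subgroup.normalizer (X : Set G) ≠ ⊤ := by
  intro e
  rcases h.simple X (Subgroup.normalizer_eq_top_iff.1 e) hi with h1 | h1
  · exact hne h1
  · exact h.ne_top_of_isPGroup hX h1

theorem centralizer_ne_top {X : Subgroup G} (hi : Inv φ X) (hne : X ≠ ⊥) :
    Subgroup.centralizer (X : Set G) ≠ ⊤ := by
  intro e
  have hc : X ≤ Subgroup.center G := fun x hx => Subgroup.mem_center_iff.2 fun g =>
    (Subgroup.mem_centralizer_iff.1 (e ▸ Subgroup.mem_top g : g ∈ Subgroup.centralizer (X : Set G)) x hx).symm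
  haveI : X.Normal := ⟨fun x hx g => by
    rw [Subgroup.mem_center_iff.1 (hc hx) g, mul_inv_cancel_right]; exact hx⟩
  rcases h.simple X inferInstance hi with h1 | h1
  · exact hne h1
  · refine h.nonsolv (Group.isSolvable_of_comm fun a b => ?_)
    exact Subgroup.mem_center_iff.1 (hc (h1 ▸ Subgroup.mem_top b)) a

theorem isPR_prPart' {p r : ℕ} [Fact p.Prime] [Fact r.Prime] {P : Sylow p G} {R : Sylow r G}
    (hP : Inv φ (P : Subgroup G)) (hR : Inv φ (R : Subgroup G)) {M : Subgroup G} (hM : Inv φ M)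
    (hne : M ≠ ⊤) : InFam φ p r (prPart P R M) :=
  haveI := h.solv M hM hne
  ⟨inv_sup (inv_inf hP hM) (inv_inf hR hM), isPR_prPart h.toHyp hP hR hM, fun e =>
    hne (top_le_iff.1 (e ▸ sup_le inf_le_right inf_le_right))⟩

theorem eq_prPart {p r : ℕ} [Fact p.Prime] [Fact r.Prime] {P : Sylow p G} {R : Sylow r G}
    (hP : Inv φ (P : Subgroup G)) (hR : Inv φ (R : Subgroup G)) {K : Subgroup G}
    (hK : InFam φ p r K) : prPart P R K = K :=
  eq_sup_of_isPR h.toHyp hP hR hK.1 hK.2.1

/-- A subgroup fixed pointwise or generated by lines. -/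
theorem fixed_cases (a b : A) (ha : a ≠ 1) (hb : b ≠ 1) :
    Indep a b ∨ ∀ x, φ b x = x → φ a x = x := by
  by_cases hab : b ∈ Subgroup.zpowers a
  · exact Or.inr fun x hx => h.rank.fix_of_pow_fix ha hab hb hx
  · exact Or.inl ⟨ha, hab⟩

omit [Finite G] in
theorem exists_indep_both {a c : A} (ha : a ≠ 1) (hc : c ≠ 1) :
    ∃ b, Indep a b ∧ Indep c b := by
  by_cases hac : c ∈ Subgroup.zpowers a
  · obtain ⟨b, hb⟩ := h.rank.exists_indep ha
    exact ⟨b, hb, hc, by rw [h.rank.zpowers_eq_of_mem ha hc hac]; exact hb.2⟩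
  · refine ⟨a * c, ⟨ha, fun e => hac ?_⟩, hc, fun e => hac ?_⟩
    · exact (Subgroup.mul_mem_cancel_left _ (Subgroup.mem_zpowers a)).1 e
    · exact absurd ((Subgroup.mul_mem_cancel_right _ (Subgroup.mem_zpowers c)).1 e)
        (h.rank.symm ⟨ha, hac⟩).2

/-- No invariant Sylow subgroup lies in a single fixed point subgroup. -/
theorem two_lines {p : ℕ} [Fact p.Prime] (P : Sylow p G) (hP : Inv φ (P : Subgroup G))
    (hdvd : p ∣ Nat.card G) {a : A} (ha : a ≠ 1) : ¬ ∀ y ∈ (P : Subgroup G), φ a y = y := by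
  intro hPa
  haveI := h.toHyp.fact
  have hPne : (P : Subgroup G) ≠ ⊥ := P.ne_bot_of_dvd_card hdvd
  set N := Subgroup.normalizer ((P : Subgroup G) : Set G) with hN
  have hNi : Inv φ N := inv_normalizer hP
  haveI := h.solv N hNi (h.normalizer_ne_top P.isPGroup' hP hPne)
  have hcomm : ∀ x ∈ (P : Subgroup G), ∀ y ∈ (P : Subgroup G), x * y = y * x :=
    fun x hx y hy => h.comm a ha x y (hPa x hx) (hPa y hy)
  have hNC : N ≤ Subgroup.centralizer ((P : Subgroup G) : Set G) := by
    refine le_of_sylow_parts fun s hs _ => ?_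
    obtain ⟨S, hS⟩ := exists_inv_sylow (h.rank.isPGroup) h.toHyp.not_dvd φ s
    refine ⟨(S : Subgroup G) ⊓ N, le_inf inf_le_right ?_, card_sylow_inf h.toHyp hS hNi⟩
    by_cases hsp : s = p
    · subst hsp
      rw [inv_sylow_unique h.toHyp hS hP]
      exact fun x hx => Subgroup.mem_centralizer_iff.2 fun y hy => hcomm y hy x hx.1
    have hpi : IsPGroup s ((S : Subgroup G) ⊓ N : Subgroup G) := S.isPGroup'.to_le inf_le_left
    haveI := hpi.isNilpotent
    refine gen_le h.toHyp (inv_inf hS hNi) fun c hc g hg hgc => ?_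
    obtain ⟨b, hab, hcb⟩ := h.exists_indep_both ha hc
    have hXle : (S : Subgroup G) ⊓ N ⊓ fixSub φ c ≤ Subgroup.centralizer ((P : Subgroup G) : Set G) := by
      intro x hx
      refine Subgroup.mem_centralizer_iff.2 fun y hy => ?_
      refine (line_lemma h.toHyp P.isPGroup' hP (inv_inf (inv_inf hS hNi) (inv_fixSub h.rank.comm c))
        (fun z hz => hz.1.2) ?_ hcb (fun z hz => hz.2) (fun y hy hyb z _ => ?_) x hx y hy).symm
      · intro hd
        obtain ⟨k, hk⟩ := IsPGroup.iff_card.1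
          (hpi.to_le (inf_le_left : (S : Subgroup G) ⊓ N ⊓ fixSub φ c ≤ (S : Subgroup G) ⊓ N))
        rw [hk] at hd
        exact hsp ((Nat.prime_dvd_prime_iff_eq Fact.out hs.out).1 ((Fact.out : p.Prime).dvd_of_dvd_pow hd)).symm
      · rw [h.fpf y (h.rank.fix_both hab (hPa y hy) hyb), mul_one, one_mul]
    exact hXle ⟨hg, hgc⟩
  have hcompl := MonoidHom.ker_transferSylow_isComplement' P (hN ▸ hNC)
  set K := (MonoidHom.transferSylow P (hN ▸ hNC)).ker with hK
  have hKeq : K = pPrimeCore p G := NormalPComplement.eq_pPrimeCore_of_isComplement' hcompl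
  rcases h.simple (pPrimeCore p G) (hKeq ▸ inferInstance) (by
      haveI := CfsgLib.Cores.pPrimeCore_characteristic p G
      exact inv_of_characteristic φ _) with h1 | h1
  · rw [← hKeq] at h1
    rw [h1] at hcompl
    exact h.ne_top_of_isPGroup P.isPGroup' (Subgroup.isComplement'_bot_left.1 hcompl)
  · rw [← hKeq] at h1
    rw [h1] at hcompl
    exact hPne (Subgroup.isComplement'_top_left.1 hcompl)

/-- If nothing of order prime to `p` acts on `p`-subgroups, local subgroups are `p`-nilpotent. -/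
theorem local_complement {p : ℕ} [Fact p.Prime] (P : Sylow p G) (hP : Inv φ (P : Subgroup G))
    (hnone : ∀ (Y X : Subgroup G) (a : A), a ≠ 1 → IsPGroup p Y → Inv φ Y → Inv φ X →
      X ≤ Subgroup.normalizer (Y : Set G) → ¬ p ∣ Nat.card X → (∀ x ∈ X, φ a x = x) →
      X ≤ Subgroup.centralizer (Y : Set G))
    {M : Subgroup G} (hM : Inv φ M) (hne : M ≠ ⊤) : HasNormalPComplement p M := by
  haveI := h.toHyp.fact
  haveI := h.solv M hM hne
  set K := pPrimeCore p M with hK
  set Y' := (pCore p (M ⧸ K)).comap (QuotientGroup.mk' K) with hY'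
  haveI : Y'.Characteristic := by
    refine Subgroup.characteristic_iff_comap_eq.2 fun f => ?_
    let fb : M ⧸ K ≃* M ⧸ K := QuotientGroup.congr K K f
      (Subgroup.characteristic_iff_map_eq.1 (CfsgLib.Cores.pPrimeCore_characteristic p M) f)
    rw [hY', Subgroup.comap_comap]
    conv_rhs => rw [← (inferInstance : (pCore p (M ⧸ K)).Characteristic).fixed fb, Subgroup.comap_comap]
    rfl
  set Yg := Y'.map M.subtype with hYg
  have hYgi : Inv φ Yg := inv_map_subtype hM Y'
  set Y := (P : Subgroup G) ⊓ Yg with hY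
  have hYi : Inv φ Y := inv_inf hP hYgi
  have hYp : IsPGroup p Y := P.isPGroup'.to_le inf_le_left
  set YM := Y.subgroupOf M with hYM
  have hYle : Y ≤ M := inf_le_right.trans (Subgroup.map_subtype_le _)
  let S : Sylow p Y' := Sylow.ofCard (YM.subgroupOf Y') (by
    have hle : YM ≤ Y' := fun x hx => by
      obtain ⟨z, hz, hze⟩ := hx.2
      rwa [← Subtype.ext hze]
    rw [Nat.card_congr (Subgroup.subgroupOfEquivOfLe hle).toEquiv,
      Nat.card_congr (Subgroup.subgroupOfEquivOfLe hYle).toEquiv, hY, card_sylow_inf h.toHyp hP hYgi,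
      hYg, Subgroup.card_map_of_injective M.subtype_injective])
  have hSmap : (S : Subgroup Y').map Y'.subtype = YM := by
    show (YM.subgroupOf Y').map Y'.subtype = YM
    refine Subgroup.map_subgroupOf_eq_of_le fun x hx => ?_
    obtain ⟨z, hz, hze⟩ := hx.2
    rwa [← Subtype.ext hze]
  have hfr := Sylow.normalizer_sup_eq_top S
  rw [hSmap] at hfr
  -- the quotient is a `p`-group
  set π := QuotientGroup.mk' K with hπ
  have hYK : Y' = YM ⊔ K := by
    refine le_antisymm ?_ (sup_le ?_ ?_)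
    · have hKY : K ≤ Y' := fun k hk => by
        rw [hY', Subgroup.mem_comap, QuotientGroup.mk'_apply, (QuotientGroup.eq_one_iff k).2 hk]
        exact Subgroup.one_mem _
      intro y hy
      haveI : (K.subgroupOf Y').Normal := inferInstance
      have hqp : IsPGroup p (Y' ⧸ K.subgroupOf Y') := by
        intro z
        induction z using QuotientGroup.induction_on with | _ z =>
        obtain ⟨e, he⟩ := CfsgLib.Cores.isPGroup_pCore p (M ⧸ K) ⟨π z, z.2⟩
        refine ⟨e, ?_⟩
        rw [← QuotientGroup.mk_pow, QuotientGroup.eq_one_iff, Subgroup.mem_subgroupOf,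
          ← QuotientGroup.eq_one_iff, SubgroupClass.coe_pow, QuotientGroup.mk_pow]
        exact congrArg Subtype.val he
      have hsur := (S.mapSurjective (QuotientGroup.mk'_surjective (K.subgroupOf Y')))
      have htop : ((S.mapSurjective (QuotientGroup.mk'_surjective (K.subgroupOf Y'))) :
          Subgroup (Y' ⧸ K.subgroupOf Y')) = ⊤ :=
        ((S.mapSurjective (QuotientGroup.mk'_surjective (K.subgroupOf Y'))).is_maximal'
          (hqp.of_equiv Subgroup.topEquiv.symm) le_top).symm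
      obtain ⟨w, hw, hwe⟩ := (htop.ge (Subgroup.mem_top ((⟨y, hy⟩ : Y') : Y' ⧸ K.subgroupOf Y')) :)
      have hwK := QuotientGroup.eq.1 hwe
      rw [show y = (w : M) * ((w : M)⁻¹ * y) by group]
      refine Subgroup.mul_mem_sup ?_ hwK
      rw [← hSmap]
      exact ⟨w, hw, rfl⟩
    · exact fun x hx => by
        obtain ⟨z, hz, hze⟩ := hx.2
        rwa [← Subtype.ext hze]
    · intro k hk
      rw [hY', Subgroup.mem_comap, QuotientGroup.mk'_apply, (QuotientGroup.eq_one_iff k).2 hk]
      exact Subgroup.one_mem _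
  set NY := Subgroup.normalizer (YM : Set M) with hNY
  have hsup : NY ⊔ K = ⊤ := by
    refine top_le_iff.1 (hfr.ge.trans (sup_le le_sup_left ?_))
    rw [hYK]
    exact sup_le (Subgroup.le_normalizer.trans le_sup_left) le_sup_right
  set PM := ((P : Subgroup G) ⊓ M).subgroupOf M with hPM
  have hNYle : NY ≤ PM ⊔ K := by
    set NYg := NY.map M.subtype with hNYg
    have hNYgi : Inv φ NYg := by
      have e : NYg = Subgroup.normalizer (Y : Set G) ⊓ M := by
        rw [hNYg, hNY, hYM, ← Subgroup.subgroupOf_normalizer_eq hYle, Subgroup.subgroupOf_map_subtype]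
      rw [e]
      exact inv_inf (inv_normalizer hYi) hM
    have hNYn : NYg ≤ Subgroup.normalizer (Y : Set G) := by
      rw [hNYg, hNY, hYM, ← Subgroup.subgroupOf_normalizer_eq hYle, Subgroup.subgroupOf_map_subtype]
      exact inf_le_left
    suffices hle : NYg ≤ (PM ⊔ K).map M.subtype by
      exact fun x hx => (Subgroup.mem_map_iff_mem M.subtype_injective).1 (hle ⟨x, hx, rfl⟩)
    refine le_of_sylow_parts fun s hs _ => ?_
    obtain ⟨S', hS'⟩ := exists_inv_sylow h.rank.isPGroup h.toHyp.not_dvd φ s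
    refine ⟨(S' : Subgroup G) ⊓ NYg, le_inf inf_le_right ?_, card_sylow_inf h.toHyp hS' hNYgi⟩
    by_cases hsp : s = p
    · subst hsp
      rw [inv_sylow_unique h.toHyp hS' hP, Subgroup.map_sup]
      intro x hx
      have hxM : x ∈ M := Subgroup.map_subtype_le _ hx.2
      exact Subgroup.mem_sup_left ⟨⟨x, hxM⟩, ⟨hx.1, hxM⟩, rfl⟩
    have hpi : IsPGroup s ((S' : Subgroup G) ⊓ NYg : Subgroup G) := S'.isPGroup'.to_le inf_le_left
    haveI := hpi.isNilpotent
    have hcent : (S' : Subgroup G) ⊓ NYg ≤ Subgroup.centralizer (Y : Set G) := by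
      refine gen_le h.toHyp (inv_inf hS' hNYgi) fun c hc g hg hgc => ?_
      refine hnone Y ((S' : Subgroup G) ⊓ NYg ⊓ fixSub φ c) c hc hYp hYi
        (inv_inf (inv_inf hS' hNYgi) (inv_fixSub h.rank.comm c)) (fun z hz => hNYn hz.1.2) ?_
        (fun z hz => hz.2) ⟨hg, hgc⟩
      intro hd
      obtain ⟨k, hk⟩ := IsPGroup.iff_card.1
        (hpi.to_le (inf_le_left : (S' : Subgroup G) ⊓ NYg ⊓ fixSub φ c ≤ _))
      rw [hk] at hd
      exact hsp ((Nat.prime_dvd_prime_iff_eq Fact.out hs.out).1 ((Fact.out : p.Prime).dvd_of_dvd_pow hd)).symm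
    intro x hx
    obtain ⟨u, hu, hux⟩ := hx.2
    rw [Subgroup.map_sup]
    refine Subgroup.mem_sup_right ⟨u, ?_, hux⟩
    have h1 : π u ∈ Subgroup.centralizer (pCore p (M ⧸ K) : Set (M ⧸ K)) := by
      rw [Subgroup.mem_centralizer_iff]
      intro z hz
      obtain ⟨w, rfl⟩ := QuotientGroup.mk'_surjective K z
      have hw : w ∈ YM ⊔ K := hYK ▸ hz
      obtain ⟨w₁, hw₁, w₂, hw₂, rfl⟩ := Subgroup.mem_sup_of_normal_right.1 hw
      have hcom : w₁ * u = u * w₁ := Subtype.ext (by
        have h3 := Subgroup.mem_centralizer_iff.1 (hcent hx) w₁ hw₁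
        have hux' : (u : G) = x := hux
        simp only [Subgroup.coe_mul, hux']
        exact h3)
      rw [hπ, QuotientGroup.mk'_apply, QuotientGroup.mk'_apply, QuotientGroup.mk_mul,
        (QuotientGroup.eq_one_iff w₂).2 hw₂, mul_one, ← QuotientGroup.mk_mul, hcom, QuotientGroup.mk_mul]
    obtain ⟨e, he⟩ := CfsgLib.Cores.isPGroup_pCore p (M ⧸ K)
      ⟨π u, CfsgLib.Balance.centralizer_pCore_le_of_isSolvable h1⟩
    obtain ⟨e', he'⟩ := S'.isPGroup' ⟨x, hx.1⟩
    have hu' : u ^ s ^ e' = 1 := Subtype.ext (by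
      have h4 : x ^ s ^ e' = 1 := congrArg Subtype.val he'
      have hux' : (u : G) = x := hux
      rw [SubgroupClass.coe_pow, hux', h4, OneMemClass.coe_one])
    have h2 := (pow_gcd_eq_one (a := π u)).2
      ⟨congrArg Subtype.val he, (by rw [← map_pow, hu', map_one] : π u ^ s ^ e' = 1)⟩
    rw [((Nat.coprime_primes Fact.out hs.out).2 (fun e => hsp e.symm)).pow e e', pow_one] at h2
    exact (QuotientGroup.eq_one_iff u).1 h2
  refine NormalPComplement.hasNormalPComplement_iff_isPGroup_quotient.2 fun z => ?_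
  obtain ⟨x, rfl⟩ := QuotientGroup.mk_surjective z
  have hx : x ∈ PM ⊔ K := (sup_le hNYle le_sup_right) (hsup ▸ Subgroup.mem_top x)
  obtain ⟨x₁, hx₁, x₂, hx₂, rfl⟩ := Subgroup.mem_sup_of_normal_right.1 hx
  obtain ⟨e, he⟩ := P.isPGroup' ⟨x₁, hx₁.1⟩
  refine ⟨e, ?_⟩
  have he' : x₁ ^ p ^ e = 1 := Subtype.ext (by
    have h5 : (x₁ : G) ^ p ^ e = 1 := congrArg Subtype.val he
    rw [SubgroupClass.coe_pow, h5, OneMemClass.coe_one])
  rw [QuotientGroup.mk_mul, (QuotientGroup.eq_one_iff x₂).2 hx₂, mul_one, ← QuotientGroup.mk_pow, he',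
    QuotientGroup.mk_one]

/-- For odd `p` the invariant Sylow subgroup meets all fixed point subgroups but at most one line. -/
theorem odd_lines {p : ℕ} [Fact p.Prime] (hp2 : p ≠ 2) (P : Sylow p G) (hP : Inv φ (P : Subgroup G))
    (hdvd : p ∣ Nat.card G) :
    ∃ a : A, a ≠ 1 ∧ ∀ b, Indep a b → ∃ y ∈ (P : Subgroup G), y ≠ 1 ∧ φ b y = y := by
  by_contra! hc
  have hnone : ∀ (Y X : Subgroup G) (a : A), a ≠ 1 → IsPGroup p Y → Inv φ Y → Inv φ X →
      X ≤ Subgroup.normalizer (Y : Set G) → ¬ p ∣ Nat.card X → (∀ x ∈ X, φ a x = x) →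
      X ≤ Subgroup.centralizer (Y : Set G) := by
    intro Y X a ha hY hYi hXi hXY hcop hXa x hx
    obtain ⟨b, hb, hPb⟩ := hc a ha
    refine Subgroup.mem_centralizer_iff.2 fun y hy => (line_lemma h.toHyp hY hYi hXi hXY hcop hb hXa
      (fun y hy hyb z _ => ?_) x hx y hy).symm
    have : y = 1 := by
      by_contra hy1
      exact hPb y (le_inv_sylow h.toHyp hP hY hYi hy) hy1 hyb
    rw [this, mul_one, one_mul]
  have hPne : (P : Subgroup G) ≠ ⊥ := P.ne_bot_of_dvd_card hdvd
  haveI := P.isPGroup'.isNilpotent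
  set J := thompsonSubgroupOf p (P : Subgroup G) with hJ
  have hJi : Inv φ J := by
    intro a x hx
    have h1 : (J.map (φ a).toMonoidHom) = J := by
      rw [hJ, CfsgLib.ThompsonJ.map_thompsonSubgroupOf (φ a).injective, map_eq_of_inv hP]
    exact h1.le ⟨x, hx, rfl⟩
  have hJP : J ≤ (P : Subgroup G) := Subgroup.map_subtype_le _
  set Z := (P : Subgroup G) ⊓ Subgroup.centralizer ((P : Subgroup G) : Set G) with hZ
  have hZi : Inv φ Z := inv_inf hP (inv_centralizer hP)
  have hZne : Z ≠ ⊥ := by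
    haveI : Nontrivial P := (Subgroup.nontrivial_iff_ne_bot _).2 hPne
    obtain ⟨⟨z, hz⟩, hz1⟩ := Subgroup.ne_bot_iff_exists_ne_one.1
      ((Subgroup.nontrivial_iff_ne_bot _).1 P.isPGroup'.center_nontrivial)
    intro e
    refine hz1 (Subtype.ext (Subtype.ext ?_))
    have : (z : G) ∈ Z := ⟨z.2, Subgroup.mem_centralizer_iff.2 fun y hy =>
      congrArg Subtype.val (Subgroup.mem_center_iff.1 hz ⟨y, hy⟩)⟩
    rw [e, Subgroup.mem_bot] at this
    simpa using this
  have hJne : J ≠ ⊥ := CfsgLib.ThompsonJ.thompsonSubgroupOf_ne_bot (P.dvd_card_of_dvd_card hdvd)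
  have hG : HasNormalPComplement p G :=
    NormalPComplement.hasNormalPComplement_of_thompson hp2 P
      (h.local_complement P hP hnone (inv_normalizer hJi)
        (h.normalizer_ne_top (P.isPGroup'.to_le hJP) hJi hJne))
      (h.local_complement P hP hnone (inv_centralizer hZi) (h.centralizer_ne_top hZi hZne))
  have hc' := NormalPComplement.isComplement'_pPrimeCore hG P
  haveI := CfsgLib.Cores.pPrimeCore_characteristic p G
  rcases h.simple (pPrimeCore p G) inferInstance (inv_of_characteristic φ _) with h1 | h1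
  · rw [h1] at hc'
    exact h.ne_top_of_isPGroup P.isPGroup' (Subgroup.isComplement'_bot_left.1 hc')
  · rw [h1] at hc'
    exact hPne (Subgroup.isComplement'_top_left.1 hc')

section TwoPrimes

variable {p r : ℕ} [Fact p.Prime] [Fact r.Prime] (hpr : p ≠ r) {P : Sylow p G} {R : Sylow r G}
  (hP : Inv φ (P : Subgroup G)) (hR : Inv φ (R : Subgroup G))

/-- In a two-prime member, `(P ∩ H) O_r(H)` is normal. -/
theorem le_normalizer_sup_core (hpr : p ≠ r) (hP : Inv φ (P : Subgroup G)) {H : Subgroup G}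
    (hH : InFam φ p r H) :
    H ≤ Subgroup.normalizer ((((P : Subgroup G) ⊓ H) ⊔ core r H : Subgroup G) : Set G) := by
  haveI := h.solv H hH.1 hH.2.2
  obtain ⟨L, hLn, ⟨k, hk⟩, ⟨k', hk'⟩⟩ := fittingHeight_of_fpf_rankTwo h.rank
    (φ := restrictAct φ H hH.1) (h.toHyp.restrict hH.1).fpf
  haveI := hLn
  haveI : Group.IsNilpotent L := (Subgroup.isNilpotent_iff_lowerCentralSeries L).2 ⟨k, hk⟩
  have hsy : ∀ (s : ℕ) [Fact s.Prime] (T : Sylow s L), (T : Subgroup L).map L.subtype ≤ pCore s H := by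
    intro s _ T
    haveI : (T : Subgroup L).Normal := Sylow.normal_of_all_max_subgroups_normal
      (fun M hM => Subgroup.NormalizerCondition.normal_of_coatom M
        Group.normalizerCondition_of_isNilpotent hM) T
    haveI : (T : Subgroup L).Characteristic := T.characteristic_of_normal inferInstance
    exact CfsgLib.Cores.le_pCore (hN := ConjAct.normal_of_characteristic_of_normal) (T.isPGroup'.map _)
  set F := pCore p H ⊔ pCore r H with hF
  have hLF : L ≤ F := by
    refine le_of_sylow_parts fun s hs hd => ?_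
    haveI := hs
    obtain ⟨T⟩ := (Sylow.nonempty : Nonempty (Sylow s L))
    refine ⟨(T : Subgroup L).map L.subtype, le_inf (Subgroup.map_subtype_le _) ?_, ?_⟩
    · have hsH : s ∣ Nat.card H := hd.trans L.card_subgroup_dvd_card
      rcases hH.2.1 s hs.out hsH with rfl | rfl
      · exact (hsy _ T).trans le_sup_left
      · exact (hsy _ T).trans le_sup_right
    · rw [Subgroup.card_map_of_injective L.subtype_injective, T.card_eq_multiplicity]
  haveI : Group.IsNilpotent (H ⧸ F) := by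
    rw [← Group.isNilpotent_top, Subgroup.isNilpotent_iff_lowerCentralSeries]
    refine ⟨k', ?_⟩
    have e : (⊤ : Subgroup (H ⧸ F)) = (⊤ : Subgroup H).map (QuotientGroup.mk' F) :=
      (Subgroup.map_top_of_surjective _ (QuotientGroup.mk'_surjective F)).symm
    rw [e, ← Subgroup.map_lowerCentralSeries, Subgroup.map_eq_bot_iff, QuotientGroup.ker_mk']
    exact hk'.trans hLF
  let S : Sylow p H := Sylow.ofCard (((P : Subgroup G) ⊓ H).subgroupOf H) (by
    rw [Nat.card_congr (Subgroup.subgroupOfEquivOfLe inf_le_right).toEquiv, card_sylow_inf h.toHyp hP hH.1])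
  haveI : ((S.mapSurjective (QuotientGroup.mk'_surjective F)) : Subgroup (H ⧸ F)).Normal :=
    Sylow.normal_of_all_max_subgroups_normal
      (fun M hM => Subgroup.NormalizerCondition.normal_of_coatom M
        Group.normalizerCondition_of_isNilpotent hM) _
  set K := ((P : Subgroup G) ⊓ H).subgroupOf H ⊔ pCore r H with hK
  have hKeq : ((S.mapSurjective (QuotientGroup.mk'_surjective F)) : Subgroup (H ⧸ F)).comap
      (QuotientGroup.mk' F) = K := by
    rw [Sylow.coe_mapSurjective, Subgroup.comap_map_eq, QuotientGroup.ker_mk', hK, hF, ← sup_assoc]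
    congr 1
    refine sup_eq_left.2 ?_
    exact (CfsgLib.Cores.isPGroup_pCore p H).le_sylow_of_normal (N := pCore p H) S
  haveI : K.Normal := hKeq ▸ Subgroup.Normal.comap inferInstance _
  have hmap : K.map H.subtype = ((P : Subgroup G) ⊓ H) ⊔ core r H := by
    rw [hK, Subgroup.map_sup, Subgroup.map_subgroupOf_eq_of_le inf_le_right]; rfl
  rw [← hmap]
  intro x hx
  refine CoprimeAction.mem_normalizer_of_conj_mem ?_
  rintro _ ⟨y, hy, rfl⟩
  exact ⟨⟨x, hx⟩ * y * ⟨x, hx⟩⁻¹, (inferInstance : K.Normal).conj_mem y hy _, rfl⟩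

/-- An invariant `r`-subgroup centralising `O_p(H)` lies in `O_r(H)`. -/
theorem le_core_of_centralizes (hpr : p ≠ r) (hR : Inv φ (R : Subgroup G)) {H : Subgroup G}
    (hH : InFam φ p r H) {S : Subgroup G} (hS : IsPGroup r S) (hSi : Inv φ S) (hSH : S ≤ H)
    (hSc : S ≤ Subgroup.centralizer (core p H : Set G)) : S ≤ core r H := by
  set K := ((R : Subgroup G) ⊓ H) ⊔ core p H with hK
  have hKn : H ≤ Subgroup.normalizer (K : Set G) :=
    h.le_normalizer_sup_core (p := r) (r := p) hpr.symm hR ⟨hH.1, hH.2.1.swap, hH.2.2⟩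
  have hKH : K ≤ H := sup_le inf_le_right (core_le p H)
  set M := K ⊓ Subgroup.centralizer (core p H : Set G) with hM
  have hMi : Inv φ M := inv_inf (inv_sup (inv_inf hR hH.1) (inv_core hH.1))
    (inv_centralizer (inv_core hH.1))
  set T := (R : Subgroup G) ⊓ M with hT
  have hST : S ≤ T := fun x hx =>
    ⟨le_inv_sylow h.toHyp hR hS hSi hx,
      Subgroup.mem_sup_left ⟨le_inv_sylow h.toHyp hR hS hSi hx, hSH hx⟩, hSc hx⟩
  refine hST.trans (le_core (inf_le_right.trans (inf_le_left.trans hKH)) ?_ (R.isPGroup'.to_le inf_le_left))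
  -- `T` is normalised by `K`
  have hTK : K ≤ Subgroup.normalizer (T : Set G) := by
    refine sup_le (fun x hx => CoprimeAction.mem_normalizer_of_conj_mem fun t ht => ?_) (fun x hx => ?_)
    · have hxK : x ∈ K := Subgroup.mem_sup_left hx
      refine ⟨R.mul_mem (R.mul_mem hx.1 ht.1) (R.inv_mem hx.1),
        K.mul_mem (K.mul_mem hxK ht.2.1) (K.inv_mem hxK), ?_⟩
      show _ ∈ Subgroup.centralizer (core p H : Set G)
      rw [Subgroup.mem_centralizer_iff]
      intro y hy
      have h1 := Subgroup.mem_centralizer_iff.1 ht.2.2 _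
        ((Subgroup.mem_normalizer_iff''.1 (le_normalizer_core p H hx.2) y).1 hy)
      calc y * (x * t * x⁻¹) = x * (x⁻¹ * y * x * t) * x⁻¹ := by group
        _ = x * (t * (x⁻¹ * y * x)) * x⁻¹ := by rw [h1]
        _ = x * t * x⁻¹ * y := by group
    · refine CoprimeAction.mem_normalizer_of_conj_mem fun t ht => ?_
      rw [Subgroup.mem_centralizer_iff.1 ht.2.2 x hx, mul_inv_cancel_right]
      exact ht
  intro x hx
  refine CoprimeAction.mem_normalizer_of_conj_mem fun t ht => ?_
  -- the conjugate lies in the unique Sylow `r`-subgroup of `M`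
  have hcM : ∀ m ∈ M, x * m * x⁻¹ ∈ M := fun m hm => by
    refine ⟨(Subgroup.mem_normalizer_iff.1 (hKn hx) m).1 hm.1, Subgroup.mem_centralizer_iff.2 fun y hy => ?_⟩
    have h1 := Subgroup.mem_centralizer_iff.1 hm.2 _
      ((Subgroup.mem_normalizer_iff''.1 (le_normalizer_core p H hx) y).1 hy)
    calc y * (x * m * x⁻¹) = x * (x⁻¹ * y * x * m) * x⁻¹ := by group
      _ = x * (m * (x⁻¹ * y * x)) * x⁻¹ := by rw [h1]
      _ = x * m * x⁻¹ * y := by group
  set T' := T.map (MulAut.conj x).toMonoidHom with hT'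
  have hT'M : T' ≤ M := by rintro _ ⟨m, hm, rfl⟩; exact hcM m hm.2
  have hTp : IsPGroup r T := R.isPGroup'.to_le inf_le_left
  have hsup : IsPGroup r (T ⊔ T' : Subgroup G) :=
    hTp.to_sup_of_normal_left' (hTp.map _) ((hT'M.trans inf_le_left).trans hTK)
  have hle : T ⊔ T' ≤ M := sup_le inf_le_right hT'M
  have hcard : Nat.card (T ⊔ T' : Subgroup G) ≤ Nat.card T := by
    rw [hT, card_sylow_inf h.toHyp hR hMi]
    obtain ⟨S', hS'⟩ := (hsup.comap_of_injective M.subtype M.subtype_injective).exists_le_sylow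
    rw [← S'.card_eq_multiplicity]
    refine le_trans (le_of_eq ?_) (Subgroup.card_le_of_le hS')
    exact (Nat.card_congr (Subgroup.subgroupOfEquivOfLe hle).toEquiv).symm
  have heq := Subgroup.eq_of_le_of_card_ge le_sup_left hcard
  rw [heq]
  exact Subgroup.mem_sup_right ⟨t, ht, rfl⟩

/-- Maximal members. -/
abbrev IsMax (φ : A →* MulAut G) (p r : ℕ) (H : Subgroup G) : Prop := Maximal (InFam φ p r) H

theorem prPart_le_max {H M : Subgroup G} (hP : Inv φ (P : Subgroup G)) (hR : Inv φ (R : Subgroup G))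
    (hH : IsMax φ p r H) (hM : Inv φ M) (hne : M ≠ ⊤) (hHM : H ≤ M) : prPart P R M ≤ H := by
  refine hH.le_of_ge (h.isPR_prPart' hP hR hM hne) ?_
  conv_lhs => rw [← h.eq_prPart hP hR hH.prop]
  exact sup_le_sup (inf_le_inf_left _ hHM) (inf_le_inf_left _ hHM)

theorem exists_max_ge {K : Subgroup G} (hK : InFam φ p r K) : ∃ H, K ≤ H ∧ IsMax φ p r H :=
  Set.Finite.exists_le_maximal (Set.toFinite {K : Subgroup G | InFam φ p r K}) hK

theorem max_trivial_core (hpr : p ≠ r) (hP : Inv φ (P : Subgroup G)) (hR : Inv φ (R : Subgroup G))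
    (hdvd : p ∣ Nat.card G) {H : Subgroup G} (hH : IsMax φ p r H) (hcore : core p H = ⊥) :
    (R : Subgroup G) ≤ H ∧ H ≤ Subgroup.normalizer ((R : Subgroup G) : Set G) := by
  set R1 := (R : Subgroup G) ⊓ H with hR1
  have hnorm : H ≤ Subgroup.normalizer (R1 : Set G) := by
    have h1 := h.le_normalizer_sup_core (p := r) (r := p) hpr.symm hR
      ⟨hH.prop.1, hH.prop.2.1.swap, hH.prop.2.2⟩
    rwa [hcore, sup_bot_eq] at h1
  have hR1i : Inv φ R1 := inv_inf hR hH.prop.1
  have hR1ne : R1 ≠ ⊥ := by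
    intro e
    have hHP : H ≤ (P : Subgroup G) := by
      conv_lhs => rw [← h.eq_prPart hP hR hH.prop]
      exact sup_le inf_le_left (by rw [← hR1, e]; exact bot_le)
    have hHbot : H = ⊥ := le_bot_iff.1
      (hcore ▸ le_core le_rfl Subgroup.le_normalizer (P.isPGroup'.to_le hHP))
    have hPfam : InFam φ p r (P : Subgroup G) := ⟨hP, fun s hs hd => Or.inl (by
      rw [P.card_eq_multiplicity] at hd
      exact (Nat.prime_dvd_prime_iff_eq hs Fact.out).1 (hs.dvd_of_dvd_pow hd)),
      h.ne_top_of_isPGroup P.isPGroup'⟩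
    exact P.ne_bot_of_dvd_card hdvd (le_bot_iff.1 (hHbot ▸ hH.le_of_ge hPfam (hHbot ▸ bot_le)))
  have hR1p : IsPGroup r R1 := R.isPGroup'.to_le inf_le_left
  have hNle := h.prPart_le_max hP hR hH (inv_normalizer hR1i) (h.normalizer_ne_top hR1p hR1i hR1ne) hnorm
  have hfull : (R : Subgroup G) ≤ H := by
    by_contra hnle
    have hlt : R1 < (R : Subgroup G) :=
      lt_of_le_not_ge inf_le_left fun hle => hnle (hle.trans inf_le_right)
    have hgt := NormalPComplement.inf_normalizer_gt R.isPGroup' hlt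
    exact hgt.not_ge (le_inf inf_le_left (le_sup_right.trans hNle))
  refine ⟨hfull, ?_⟩
  have e : R1 = (R : Subgroup G) := inf_eq_left.2 hfull
  rwa [e] at hnorm

/-- The centre of a core, in the ambient group. -/
theorem centerCore_facts {H : Subgroup G} (hH : InFam φ p r H) :
    IsPGroup p (core p H ⊓ Subgroup.centralizer (core p H : Set G) : Subgroup G) ∧
    Inv φ (core p H ⊓ Subgroup.centralizer (core p H : Set G)) ∧
    H ≤ Subgroup.normalizer ((core p H ⊓ Subgroup.centralizer (core p H : Set G) : Subgroup G) : Set G) ∧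
    (core p H ≠ ⊥ → core p H ⊓ Subgroup.centralizer (core p H : Set G) ≠ ⊥) := by
  refine ⟨(isPGroup_core p H).to_le inf_le_left, inv_inf (inv_core hH.1) (inv_centralizer (inv_core hH.1)),
    fun x hx => CoprimeAction.mem_normalizer_of_conj_mem fun y hy => ⟨?_, ?_⟩, fun hne e => ?_⟩
  · exact (Subgroup.mem_normalizer_iff.1 (le_normalizer_core p H hx) y).1 hy.1
  · show _ ∈ Subgroup.centralizer (core p H : Set G)
    rw [Subgroup.mem_centralizer_iff]
    intro z hz
    have h1 := Subgroup.mem_centralizer_iff.1 hy.2 _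
      ((Subgroup.mem_normalizer_iff''.1 (le_normalizer_core p H hx) z).1 hz)
    calc z * (x * y * x⁻¹) = x * (x⁻¹ * z * x * y) * x⁻¹ := by group
      _ = x * (y * (x⁻¹ * z * x)) * x⁻¹ := by rw [h1]
      _ = x * y * x⁻¹ * z := by group
  · haveI : Nontrivial (core p H) := (Subgroup.nontrivial_iff_ne_bot _).2 hne
    obtain ⟨⟨z, hz⟩, hz1⟩ := Subgroup.ne_bot_iff_exists_ne_one.1
      ((Subgroup.nontrivial_iff_ne_bot _).1 (isPGroup_core p H).center_nontrivial)
    refine hz1 (Subtype.ext (Subtype.ext ?_))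
    have h1 : (z : G) ∈ core p H ⊓ Subgroup.centralizer (core p H : Set G) :=
      ⟨z.2, Subgroup.mem_centralizer_iff.2 fun y hy =>
        congrArg Subtype.val (Subgroup.mem_center_iff.1 hz ⟨y, hy⟩)⟩
    rw [e, Subgroup.mem_bot] at h1
    simpa using h1

/-- First step of the uniqueness argument. -/
theorem center_le_core (hpr : p ≠ r) (hP : Inv φ (P : Subgroup G)) (hR : Inv φ (R : Subgroup G))
    {H : Subgroup G} (hH : IsMax φ p r H) (hc : core p H ≠ ⊥) {K : Subgroup G} (hK : InFam φ p r K)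
    (hKp : core p H ⊓ Subgroup.centralizer (core p H : Set G) ≤ K)
    (hKr : core r H ⊓ Subgroup.centralizer (core r H : Set G) ≤ K) :
    core r H ⊓ Subgroup.centralizer (core r H : Set G) ≤ core r K := by
  obtain ⟨hZp, hZpi, hZpn, hZpne⟩ := h.centerCore_facts (p := p) (r := r) hH.prop
  obtain ⟨hZr, hZri, hZrn, -⟩ :=
    h.centerCore_facts (p := r) (r := p) (H := H) ⟨hH.prop.1, hH.prop.2.1.swap, hH.prop.2.2⟩
  set Zp := core p H ⊓ Subgroup.centralizer (core p H : Set G) with hZpd
  set Zr := core r H ⊓ Subgroup.centralizer (core r H : Set G) with hZrd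
  have hN := h.prPart_le_max hP hR hH (inv_normalizer hZpi) (h.normalizer_ne_top hZp hZpi (hZpne hc)) hZpn
  have hsub : core p K ⊓ Subgroup.centralizer (Zp : Set G) ≤ Subgroup.centralizer (Zr : Set G) := by
    intro x hx
    have hxH : x ∈ H := hN (Subgroup.mem_sup_left
      ⟨le_inv_sylow h.toHyp hP (isPGroup_core p K) (inv_core hK.1) hx.1,
        Subgroup.centralizer_le_normalizer _ hx.2⟩)
    refine Subgroup.mem_centralizer_iff.2 fun y hy =>
      (commute_of_disjoint_pr hpr (isPGroup_core p K) hZr hx.1 hy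
        ((Subgroup.mem_normalizer_iff.1 (hZrn hxH) y).1 hy)
        ((Subgroup.mem_normalizer_iff.1 (le_normalizer_core p K (hKr hy)) x⁻¹).1 (inv_mem hx.1))).symm
  have hcop : (Nat.card Zr).Coprime p := by
    obtain ⟨k, hk⟩ := IsPGroup.iff_card.1 hZr
    rw [hk]
    exact ((Nat.coprime_primes Fact.out Fact.out).2 hpr.symm).pow_left k
  have hcent := CoprimeAction.pxq hZp hcop (isPGroup_core p K)
    (inf_le_left.trans ((core_commute hpr H).trans (Subgroup.centralizer_le (SetLike.coe_subset_coe.2 inf_le_left))))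
    (hKp.trans (le_normalizer_core p K)) (hKr.trans (le_normalizer_core p K)) hsub
  exact h.le_core_of_centralizes hpr hR hK hZr hZri hKr hcent

/-- **Uniqueness.** -/
theorem max_unique (hpr : p ≠ r) (hP : Inv φ (P : Subgroup G)) (hR : Inv φ (R : Subgroup G))
    {H : Subgroup G} (hH : IsMax φ p r H) (hcp : core p H ≠ ⊥) (hcr : core r H ≠ ⊥) {K : Subgroup G}
    (hK : InFam φ p r K) (hKp : core p H ⊓ Subgroup.centralizer (core p H : Set G) ≤ K)
    (hKr : core r H ⊓ Subgroup.centralizer (core r H : Set G) ≤ K) : K ≤ H := by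
  obtain ⟨L, hKL, hL⟩ := h.exists_max_ge hK
  refine hKL.trans ?_
  have hswap : ∀ {X : Subgroup G}, InFam φ p r X → InFam φ r p X := fun hX => ⟨hX.1, hX.2.1.swap, hX.2.2⟩
  have hmaxswap : ∀ {X : Subgroup G}, IsMax φ p r X → IsMax φ r p X := fun hX =>
    ⟨hswap hX.prop, fun Y hY hXY => hX.le_of_ge ⟨hY.1, hY.2.1.swap, hY.2.2⟩ hXY⟩
  have key : ∀ {X Y : Subgroup G}, IsMax φ p r X → IsMax φ p r Y → core p X ≠ ⊥ → core r X ≠ ⊥ →
      core p X ⊓ Subgroup.centralizer (core p X : Set G) ≤ Y →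
      core r X ⊓ Subgroup.centralizer (core r X : Set G) ≤ Y →
      core p Y ≠ ⊥ ∧ core r Y ≠ ⊥ ∧ core p Y ≤ X ∧ core r Y ≤ X := by
    intro X Y hX hY hXp hXr hYp hYr
    have h1 := h.center_le_core hpr hP hR hX hXp hY.prop hYp hYr
    have h2 := h.center_le_core (p := r) (r := p) (P := R) (R := P) hpr.symm hR hP (hmaxswap hX) hXr
      (hswap hY.prop) hYr hYp
    obtain ⟨hZp, hZpi, hZpn, hZpne⟩ := h.centerCore_facts (p := p) (r := r) hX.prop
    obtain ⟨hZr, hZri, hZrn, hZrne⟩ := h.centerCore_facts (p := r) (r := p) (hswap hX.prop)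
    have hN1 := h.prPart_le_max hP hR hX (inv_normalizer hZri) (h.normalizer_ne_top hZr hZri (hZrne hXr)) hZrn
    have hN2 := h.prPart_le_max hP hR hX (inv_normalizer hZpi) (h.normalizer_ne_top hZp hZpi (hZpne hXp)) hZpn
    refine ⟨fun e => hZpne hXp (le_bot_iff.1 (e ▸ h2)), fun e => hZrne hXr (le_bot_iff.1 (e ▸ h1)), ?_, ?_⟩
    · intro x hx
      refine hN1 (Subgroup.mem_sup_left
        ⟨le_inv_sylow h.toHyp hP (isPGroup_core p Y) (inv_core hY.prop.1) hx,
          Subgroup.centralizer_le_normalizer _ ?_⟩)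
      exact Subgroup.centralizer_le (SetLike.coe_subset_coe.2 h1) (core_commute hpr Y hx)
    · intro x hx
      refine hN2 (Subgroup.mem_sup_right
        ⟨le_inv_sylow h.toHyp hR (isPGroup_core r Y) (inv_core hY.prop.1) hx,
          Subgroup.centralizer_le_normalizer _ ?_⟩)
      exact Subgroup.centralizer_le (SetLike.coe_subset_coe.2 h2) (core_commute hpr.symm Y hx)
  obtain ⟨hLp, hLr, hLpH, hLrH⟩ := key hH hL hcp hcr (hKp.trans hKL) (hKr.trans hKL)
  obtain ⟨-, -, hHpL, hHrL⟩ := key hL hH hLp hLr (inf_le_left.trans hLpH) (inf_le_left.trans hLrH)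
  have e1 : core r L ≤ core r H := by
    refine h.le_core_of_centralizes hpr hR hH.prop (isPGroup_core r L) (inv_core hL.prop.1) hLrH
      fun x hx => Subgroup.mem_centralizer_iff.2 fun y hy =>
        commute_of_disjoint_pr hpr (isPGroup_core p H) (isPGroup_core r L) hy hx
          ((Subgroup.mem_normalizer_iff.1 (le_normalizer_core r L (hHpL hy)) x).1 hx)
          ((Subgroup.mem_normalizer_iff.1 (le_normalizer_core p H (hLrH hx)) y⁻¹).1 (inv_mem hy))
  have e2 : core r H ≤ core r L := by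
    refine h.le_core_of_centralizes hpr hR hL.prop (isPGroup_core r H) (inv_core hH.prop.1) hHrL
      fun x hx => Subgroup.mem_centralizer_iff.2 fun y hy =>
        commute_of_disjoint_pr hpr (isPGroup_core p L) (isPGroup_core r H) hy hx
          ((Subgroup.mem_normalizer_iff.1 (le_normalizer_core r H (hLpH hy)) x).1 hx)
          ((Subgroup.mem_normalizer_iff.1 (le_normalizer_core p L (hHrL hx)) y⁻¹).1 (inv_mem hy))
  have heq : core r L = core r H := le_antisymm e1 e2
  have hN := h.prPart_le_max hP hR hH (inv_normalizer (inv_core hH.prop.1))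
    (h.normalizer_ne_top (isPGroup_core r H) (inv_core hH.prop.1) hcr) (le_normalizer_core r H)
  refine le_trans ?_ hN
  conv_lhs => rw [← h.eq_prPart hP hR hL.prop]
  exact sup_le_sup (inf_le_inf_left _ (heq ▸ le_normalizer_core r L))
    (inf_le_inf_left _ (heq ▸ le_normalizer_core r L))

theorem lines_le (hpr : p ≠ r) (hP : Inv φ (P : Subgroup G)) (hR : Inv φ (R : Subgroup G))
    {H : Subgroup G} (hH : IsMax φ p r H) (hcp : core p H ≠ ⊥) (hcr : core r H ≠ ⊥) {b : A} (hb : b ≠ 1)
    {u : G} (hu : u ∈ core p H ∨ u ∈ core r H) (hu1 : u ≠ 1) (hub : φ b u = u) :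
    (P : Subgroup G) ⊓ fixSub φ b ≤ H ∧ (R : Subgroup G) ⊓ fixSub φ b ≤ H := by
  have key : ∀ U : Subgroup G, Inv φ U → (∀ x ∈ U, φ b x = x) → u ∈ U →
      core p H ⊓ Subgroup.centralizer (core p H : Set G) ≤ Subgroup.centralizer (U : Set G) →
      core r H ⊓ Subgroup.centralizer (core r H : Set G) ≤ Subgroup.centralizer (U : Set G) →
      (P : Subgroup G) ⊓ fixSub φ b ≤ H ∧ (R : Subgroup G) ⊓ fixSub φ b ≤ H := by
    intro U hUi hUb huU h1 h2
    set M := Subgroup.centralizer (U : Set G) with hM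
    have hMne : M ≠ ⊤ := h.centralizer_ne_top hUi fun e => hu1 (by simpa [e] using huU)
    have hMi : Inv φ M := inv_centralizer hUi
    have hfix : fixSub φ b ≤ M := fun x hx => Subgroup.mem_centralizer_iff.2 fun y hy =>
      h.comm b hb y x (hUb y hy) hx
    have hpZ : IsPGroup p (core p H ⊓ Subgroup.centralizer (core p H : Set G) : Subgroup G) :=
      (isPGroup_core p H).to_le inf_le_left
    have hrZ : IsPGroup r (core r H ⊓ Subgroup.centralizer (core r H : Set G) : Subgroup G) :=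
      (isPGroup_core r H).to_le inf_le_left
    have hle := h.max_unique hpr hP hR hH hcp hcr (h.isPR_prPart' hP hR hMi hMne)
      (fun x hx => Subgroup.mem_sup_left
        ⟨le_inv_sylow h.toHyp hP hpZ (inv_inf (inv_core hH.prop.1) (inv_centralizer (inv_core hH.prop.1))) hx, h1 hx⟩)
      (fun x hx => Subgroup.mem_sup_right
        ⟨le_inv_sylow h.toHyp hR hrZ (inv_inf (inv_core hH.prop.1) (inv_centralizer (inv_core hH.prop.1))) hx, h2 hx⟩)
    exact ⟨fun x hx => hle (Subgroup.mem_sup_left ⟨hx.1, hfix hx.2⟩),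
      fun x hx => hle (Subgroup.mem_sup_right ⟨hx.1, hfix hx.2⟩)⟩
  rcases hu with hu | hu
  · refine key (core p H ⊓ fixSub φ b) (inv_inf (inv_core hH.prop.1) (inv_fixSub h.rank.comm b))
      (fun x hx => hx.2) ⟨hu, hub⟩ ?_ ?_
    · exact inf_le_right.trans (Subgroup.centralizer_le (SetLike.coe_subset_coe.2 inf_le_left))
    · exact inf_le_left.trans ((core_commute hpr.symm H).trans
        (Subgroup.centralizer_le (SetLike.coe_subset_coe.2 inf_le_left)))
  · refine key (core r H ⊓ fixSub φ b) (inv_inf (inv_core hH.prop.1) (inv_fixSub h.rank.comm b))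
      (fun x hx => hx.2) ⟨hu, hub⟩ ?_ ?_
    · exact inf_le_left.trans ((core_commute hpr H).trans
        (Subgroup.centralizer_le (SetLike.coe_subset_coe.2 inf_le_left)))
    · exact inf_le_right.trans (Subgroup.centralizer_le (SetLike.coe_subset_coe.2 inf_le_left))

/-- A maximal member with two cores contains the invariant Sylow subgroup. -/
theorem sylow_le_of_cores (hpr : p ≠ r) (hP : Inv φ (P : Subgroup G)) (hR : Inv φ (R : Subgroup G))
    {H : Subgroup G} (hH : IsMax φ p r H) (hcp : core p H ≠ ⊥) (hcr : core r H ≠ ⊥) :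
    (R : Subgroup G) ≤ H := by
  by_contra hnle
  haveI := R.isPGroup'.isNilpotent
  obtain ⟨c, hc, hnc⟩ : ∃ c : A, c ≠ 1 ∧ ¬ (R : Subgroup G) ⊓ fixSub φ c ≤ H := by
    by_contra! hall
    exact hnle (gen_le h.toHyp hR fun a ha g hg hga => hall a ha ⟨hg, hga⟩)
  have hcorec : ∀ d : A, d ≠ 1 → ¬ (R : Subgroup G) ⊓ fixSub φ d ≤ H → ∀ u,
      (u ∈ core p H ∨ u ∈ core r H) → φ d u = u → u = 1 := by
    intro d hd hnd u hu hud
    by_contra hu1
    exact hnd (h.lines_le hpr hP hR hH hcp hcr hd hu hu1 hud).2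
  set R1 := (R : Subgroup G) ⊓ H with hR1
  have hR1i : Inv φ R1 := inv_inf hR hH.prop.1
  have hR1p : IsPGroup r R1 := R.isPGroup'.to_le inf_le_left
  haveI := hR1p.isNilpotent
  have hline : ∀ (b d : A), d ≠ 1 → ¬ (R : Subgroup G) ⊓ fixSub φ d ≤ H → Indep b d →
      R1 ⊓ fixSub φ b ≤ core r H := by
    intro b d hd hnd hbd
    set X := R1 ⊓ fixSub φ b with hX
    refine h.le_core_of_centralizes hpr hR hH.prop (hR1p.to_le inf_le_left)
      (inv_inf hR1i (inv_fixSub h.rank.comm b)) (inf_le_left.trans inf_le_right) fun x hx =>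
        Subgroup.mem_centralizer_iff.2 fun y hy => ?_
    refine (line_lemma h.toHyp (isPGroup_core p H) (inv_core hH.prop.1)
      (inv_inf hR1i (inv_fixSub h.rank.comm b)) (fun z hz => le_normalizer_core p H hz.1.2) ?_ hbd
      (fun z hz => hz.2) (fun y hy hyd z _ => ?_) x hx y hy).symm
    · intro hdd
      obtain ⟨k, hk⟩ := IsPGroup.iff_card.1 (hR1p.to_le (inf_le_left : R1 ⊓ fixSub φ b ≤ R1))
      rw [hk] at hdd
      exact hpr ((Nat.prime_dvd_prime_iff_eq Fact.out Fact.out).1 ((Fact.out : p.Prime).dvd_of_dvd_pow hdd))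
    · rw [hcorec d hd hnd y (Or.inl hy) hyd, mul_one, one_mul]
  set C' : A → Subgroup G := fun b => R1 ⊓ fixSub φ b with hC'
  have hN := h.prPart_le_max hP hR hH (inv_normalizer (inv_core (p := r) hH.prop.1))
    (h.normalizer_ne_top (isPGroup_core r H) (inv_core hH.prop.1) hcr) (le_normalizer_core r H)
  have hR1lt : R1 < (R : Subgroup G) :=
    lt_of_le_not_ge inf_le_left fun hle => hnle (hle.trans inf_le_right)
  have hstrict := NormalPComplement.inf_normalizer_gt R.isPGroup' hR1lt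
  have hR0 : core r H ≤ R1 :=
    le_inf (le_inv_sylow h.toHyp hR (isPGroup_core r H) (inv_core hH.prop.1)) (core_le r H)
  -- not everything is in the core
  have hR1ne : ¬ R1 ≤ core r H := by
    intro hle
    have e : R1 = core r H := le_antisymm hle hR0
    refine hstrict.not_ge (le_inf inf_le_left ?_)
    rw [e]
    exact le_sup_right.trans hN
  -- all other lines are inside
  have hother : ∀ b : A, Indep c b → (R : Subgroup G) ⊓ fixSub φ b ≤ H := by
    intro b hb
    by_contra hnb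
    refine hR1ne (gen_le h.toHyp hR1i fun d hd g hg hgd => ?_)
    have hb1 : b ≠ 1 := fun e => hb.2 (e ▸ Subgroup.one_mem _)
    rcases h.fixed_cases c d hc hd with hind | hfix
    · exact hline d c hc hnc (h.rank.symm hind) ⟨hg, hgd⟩
    · exact hline c b hb1 hnb hb ⟨hg, hfix g hgd⟩
  -- the set of elements moved into the core by `c`
  let Cs : Subgroup G :=
    { carrier := {z | z ∈ H ∧ z⁻¹ * φ c z ∈ core r H}
      one_mem' := ⟨H.one_mem, by simp⟩
      mul_mem' := fun {x y} ⟨hx, hx'⟩ ⟨hy, hy'⟩ => ⟨H.mul_mem hx hy, by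
        have h1 := (Subgroup.mem_normalizer_iff''.1 (le_normalizer_core r H hy) _).1 hx'
        have h2 := (core r H).mul_mem h1 hy'
        simpa [mul_assoc, map_mul] using h2⟩
      inv_mem' := fun {x} ⟨hx, hx'⟩ => ⟨H.inv_mem hx, by
        have h1 := (Subgroup.mem_normalizer_iff.1 (le_normalizer_core r H hx) _).1 ((core r H).inv_mem hx')
        simpa [mul_assoc, map_inv] using h1⟩ }
  have hR1C : R1 ≤ Cs := by
    refine gen_le h.toHyp hR1i fun d hd g hg hgd => ?_
    rcases h.fixed_cases c d hc hd with hind | hfix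
    · have h1 := hline d c hc hnc (h.rank.symm hind) ⟨hg, hgd⟩
      exact ⟨hg.2, (core r H).mul_mem ((core r H).inv_mem h1) (inv_core hH.prop.1 c g h1)⟩
    · refine ⟨hg.2, ?_⟩
      rw [hfix g hgd, inv_mul_cancel]
      exact (core r H).one_mem
  have hsurj : ∀ y ∈ core r H, ∃ z ∈ core r H, z⁻¹ * φ c z = y := by
    have hinj : Function.Injective fun z : core r H =>
        (⟨(z : G)⁻¹ * φ c z, (core r H).mul_mem ((core r H).inv_mem z.2) (inv_core hH.prop.1 c z z.2)⟩ : core r H) := by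
      intro z w hzw
      have h1 : (z : G)⁻¹ * φ c z = (w : G)⁻¹ * φ c w := congrArg Subtype.val hzw
      have h2 : φ c ((w : G) * (z : G)⁻¹) = (w : G) * (z : G)⁻¹ := by
        rw [map_mul, map_inv]
        calc φ c (w : G) * (φ c (z : G))⁻¹ = (w : G) * ((w : G)⁻¹ * φ c w) * (φ c (z : G))⁻¹ := by group
          _ = (w : G) * ((z : G)⁻¹ * φ c z) * (φ c (z : G))⁻¹ := by rw [h1]
          _ = (w : G) * (z : G)⁻¹ := by group
      have h3 := hcorec c hc hnc _ (Or.inr ((core r H).mul_mem w.2 ((core r H).inv_mem z.2))) h2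
      exact Subtype.ext (mul_inv_eq_one.1 h3).symm
    intro y hy
    obtain ⟨z, hz⟩ := (Finite.injective_iff_surjective.1 hinj) ⟨y, hy⟩
    exact ⟨z, z.2, congrArg Subtype.val hz⟩
  refine hstrict.not_ge (le_inf inf_le_left ?_)
  have hpg : IsPGroup r ((R : Subgroup G) ⊓ Subgroup.normalizer (R1 : Set G) : Subgroup G) :=
    R.isPGroup'.to_le inf_le_left
  haveI := hpg.isNilpotent
  refine gen_le h.toHyp (inv_inf hR (inv_normalizer hR1i)) fun d hd g hg hgd => ?_
  rcases h.fixed_cases c d hc hd with hind | hfix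
  · exact hother d hind ⟨hg.1, hgd⟩
  · have hgc : φ c g = g := hfix g hgd
    refine hN (Subgroup.mem_sup_right ⟨hg.1, CoprimeAction.mem_normalizer_of_conj_mem fun y hy => ?_⟩)
    obtain ⟨z, hz, hzy⟩ := hsurj y hy
    have h1 : g * z * g⁻¹ ∈ Cs := hR1C ((Subgroup.mem_normalizer_iff.1 hg.2 z).1 (hR0 hz))
    have h2 := h1.2
    have h3 : (g * z * g⁻¹)⁻¹ * φ c (g * z * g⁻¹) = g * y * g⁻¹ := by
      rw [map_mul, map_mul, map_inv, hgc, ← hzy]
      group
    rwa [h3] at h2

/-- Every two-prime member normalises one of the two Sylow subgroups. -/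
theorem dichotomy (hpr : p ≠ r) (hP : Inv φ (P : Subgroup G)) (hR : Inv φ (R : Subgroup G))
    (hdp : p ∣ Nat.card G) (hdr : r ∣ Nat.card G)
    (hno : ¬ IsPR p r ((P : Subgroup G) ⊔ (R : Subgroup G))) {H : Subgroup G} (hH : IsMax φ p r H) :
    ((R : Subgroup G) ≤ H ∧ H ≤ Subgroup.normalizer ((R : Subgroup G) : Set G)) ∨
    ((P : Subgroup G) ≤ H ∧ H ≤ Subgroup.normalizer ((P : Subgroup G) : Set G)) := by
  have hH' : IsMax φ r p H :=
    ⟨⟨hH.prop.1, hH.prop.2.1.swap, hH.prop.2.2⟩, fun Y hY hXY => hH.le_of_ge ⟨hY.1, hY.2.1.swap, hY.2.2⟩ hXY⟩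
  by_cases hcp : core p H = ⊥
  · exact Or.inl (h.max_trivial_core hpr hP hR hdp hH hcp)
  by_cases hcr : core r H = ⊥
  · exact Or.inr (h.max_trivial_core (p := r) (r := p) (P := R) (R := P) hpr.symm hR hP hdr hH' hcr)
  exact absurd (hH.prop.2.1.of_le (sup_le
    (h.sylow_le_of_cores (p := r) (r := p) (P := R) (R := P) hpr.symm hR hP hH' hcr hcp)
    (h.sylow_le_of_cores hpr hP hR hH hcp hcr))) hno

/-- The normalised part of `R` is trivial. -/
theorem normalized_part_eq_bot (hpr : p ≠ r) (hP : Inv φ (P : Subgroup G)) (hR : Inv φ (R : Subgroup G))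
    (hdp : p ∣ Nat.card G) (hdr : r ∣ Nat.card G)
    (hno : ¬ IsPR p r ((P : Subgroup G) ⊔ (R : Subgroup G))) :
    (R : Subgroup G) ⊓ Subgroup.normalizer ((P : Subgroup G) : Set G) = ⊥ := by
  set NP := Subgroup.normalizer ((P : Subgroup G) : Set G) with hNP
  set R1 := (R : Subgroup G) ⊓ NP with hR1
  have hPne : (P : Subgroup G) ≠ ⊥ := P.ne_bot_of_dvd_card hdp
  have hNPne : NP ≠ ⊤ := h.normalizer_ne_top P.isPGroup' hP hPne
  obtain ⟨H, hle, hH⟩ := h.exists_max_ge (h.isPR_prPart' hP hR (inv_normalizer hP) hNPne)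
  have hPH : (P : Subgroup G) ≤ H := fun x hx => hle (Subgroup.mem_sup_left ⟨hx, Subgroup.le_normalizer hx⟩)
  have hHN : H ≤ NP := by
    rcases h.dichotomy hpr hP hR hdp hdr hno hH with ⟨h1, -⟩ | ⟨-, h2⟩
    · exact absurd (hH.prop.2.1.of_le (sup_le hPH h1)) hno
    · exact h2
  have hcr : core r H = ⊥ := by
    by_contra hcr
    have hcp : core p H ≠ ⊥ := fun e => hPne (le_bot_iff.1 (e ▸ le_core hPH hHN P.isPGroup'))
    exact hno (hH.prop.2.1.of_le (sup_le hPH (h.sylow_le_of_cores hpr hP hR hH hcp hcr)))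
  have hnoR : ¬ (R : Subgroup G) ≤ NP := fun hle' => hno (hH.prop.2.1.of_le (sup_le hPH
    (fun x hx => hle (Subgroup.mem_sup_right ⟨hx, hle' hx⟩))))
  have hR1i : Inv φ R1 := inv_inf hR (inv_normalizer hP)
  have hR1p : IsPGroup r R1 := R.isPGroup'.to_le inf_le_left
  haveI := hR1p.isNilpotent
  -- faithfulness
  have hfaith : ∀ X : Subgroup G, X ≤ R1 → Inv φ X → X ≤ Subgroup.centralizer ((P : Subgroup G) : Set G) →
      X = ⊥ := by
    intro X hX hXi hXc
    refine le_bot_iff.1 (hcr ▸ h.le_core_of_centralizes hpr hR hH.prop (hR1p.to_le hX) hXi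
      (fun x hx => hle (Subgroup.mem_sup_right (hX hx))) (hXc.trans (Subgroup.centralizer_le ?_)))
    exact SetLike.coe_subset_coe.2 (le_inv_sylow h.toHyp hP (isPGroup_core p H) (inv_core hH.prop.1))
  -- other lines of `R` are in `R1`
  have hspread : ∀ a : A, a ≠ 1 → R1 ⊓ fixSub φ a ≠ ⊥ → ∀ b, Indep a b →
      (R : Subgroup G) ⊓ fixSub φ b ≤ NP := by
    intro a ha hne b hab
    have hb1 : b ≠ 1 := fun e => hab.2 (e ▸ Subgroup.one_mem _)
    set X := R1 ⊓ fixSub φ a with hX
    have hXi : Inv φ X := inv_inf hR1i (inv_fixSub h.rank.comm a)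
    obtain ⟨y, hy, hyb, x, hx, hxy⟩ : ∃ y ∈ (P : Subgroup G), φ b y = y ∧ ∃ x ∈ X, x * y ≠ y * x := by
      by_contra! hall
      refine hne (hfaith X inf_le_left hXi fun x hx => Subgroup.mem_centralizer_iff.2 fun y hy => ?_)
      refine (line_lemma h.toHyp P.isPGroup' hP hXi (fun z hz => hz.1.2) ?_ hab (fun z hz => hz.2)
        (fun y hy hyb z hz => hall y hy hyb z hz) x hx y hy).symm
      intro hdd
      obtain ⟨k, hk⟩ := IsPGroup.iff_card.1 (hR1p.to_le (inf_le_left : X ≤ R1))
      rw [hk] at hdd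
      exact hpr ((Nat.prime_dvd_prime_iff_eq Fact.out Fact.out).1 ((Fact.out : p.Prime).dvd_of_dvd_pow hdd))
    have hyN : y ∉ Subgroup.normalizer ((R : Subgroup G) : Set G) := by
      intro hyN
      refine hxy (commute_of_disjoint_pr hpr P.isPGroup' R.isPGroup' hy hx.1.1 ?_ ?_).symm
      · exact (Subgroup.mem_normalizer_iff.1 hyN x).1 hx.1.1
      · exact (Subgroup.mem_normalizer_iff.1 hx.1.2 y⁻¹).1 (inv_mem hy)
    haveI : Group.IsSolvable (fixSub φ b) :=
      Group.isSolvable_of_comm fun u v => Subtype.ext (h.comm b hb1 u v u.2 v.2)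
    obtain ⟨L, hL, hLmax⟩ := h.exists_max_ge (h.isPR_prPart' hP hR (inv_fixSub h.rank.comm b)
      (h.ne_top_of_isSolvable inferInstance))
    rcases h.dichotomy hpr hP hR hdp hdr hno hLmax with ⟨-, h2⟩ | ⟨-, h2⟩
    · exact absurd (h2 (hL (Subgroup.mem_sup_left ⟨hy, hyb⟩))) hyN
    · exact fun z hz => h2 (hL (Subgroup.mem_sup_right hz))
  by_contra hne
  obtain ⟨a, ha, hane⟩ : ∃ a : A, a ≠ 1 ∧ R1 ⊓ fixSub φ a ≠ ⊥ := by
    by_contra! hall
    refine hne (le_bot_iff.1 (gen_le h.toHyp hR1i fun a ha g hg hga => ?_))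
    rw [← hall a ha]
    exact ⟨hg, hga⟩
  have hothers : ∀ b, Indep a b → (R : Subgroup G) ⊓ fixSub φ b = ⊥ := by
    intro b hb
    by_contra hbne
    have hb1 : b ≠ 1 := fun e => hb.2 (e ▸ Subgroup.one_mem _)
    have hb' : R1 ⊓ fixSub φ b ≠ ⊥ := by
      intro e
      refine hbne (le_bot_iff.1 (e ▸ ?_))
      exact fun z hz => ⟨⟨hz.1, hspread a ha hane b hb hz⟩, hz.2⟩
    haveI := R.isPGroup'.isNilpotent
    refine hnoR (gen_le h.toHyp hR fun d hd g hg hgd => ?_)
    rcases h.fixed_cases a d ha hd with hind | hfix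
    · exact hspread a ha hane d hind ⟨hg, hgd⟩
    · exact hspread b hb1 hb' a (h.rank.symm hb) ⟨hg, hfix g hgd⟩
  haveI := R.isPGroup'.isNilpotent
  refine h.two_lines R hR hdr ha fun y hy => gen_le h.toHyp hR (C := fixSub φ a) (fun d hd g hg hgd => ?_) hy
  rcases h.fixed_cases a d ha hd with hind | hfix
  · have : g ∈ (⊥ : Subgroup G) := hothers d hind ▸ ⟨hg, hgd⟩
    rw [Subgroup.mem_bot] at this
    rw [this]
    exact Subgroup.one_mem _
  · exact hfix g hgd

/-- The invariant Sylow subgroups permute. -/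
theorem isPR_sup (hpr : p ≠ r) (hp2 : p ≠ 2) (hP : Inv φ (P : Subgroup G))
    (hR : Inv φ (R : Subgroup G)) (hdp : p ∣ Nat.card G) (hdr : r ∣ Nat.card G) :
    IsPR p r ((P : Subgroup G) ⊔ (R : Subgroup G)) := by
  by_contra hno
  have hR1 := h.normalized_part_eq_bot hpr hP hR hdp hdr hno
  have hP1 := h.normalized_part_eq_bot (p := r) (r := p) (P := R) (R := P) hpr.symm hR hP hdr hdp
    (fun hh => hno (sup_comm (R : Subgroup G) P ▸ hh.swap))
  obtain ⟨a, ha, hPa⟩ := h.odd_lines hp2 P hP hdp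
  haveI := R.isPGroup'.isNilpotent
  refine h.two_lines R hR hdr ha fun y hy => gen_le h.toHyp hR (C := fixSub φ a) (fun d hd g hg hgd => ?_) hy
  rcases h.fixed_cases a d ha hd with hind | hfix
  · obtain ⟨z, hz, hz1, hzd⟩ := hPa d hind
    haveI : Group.IsSolvable (fixSub φ d) :=
      Group.isSolvable_of_comm fun u v => Subtype.ext (h.comm d hd u v u.2 v.2)
    obtain ⟨L, hL, hLmax⟩ := h.exists_max_ge (h.isPR_prPart' hP hR (inv_fixSub h.rank.comm d)
      (h.ne_top_of_isSolvable inferInstance))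
    rcases h.dichotomy hpr hP hR hdp hdr hno hLmax with ⟨-, h2⟩ | ⟨-, h2⟩
    · have : z ∈ (⊥ : Subgroup G) := hP1 ▸ ⟨hz, h2 (hL (Subgroup.mem_sup_left ⟨hz, hzd⟩))⟩
      exact absurd (Subgroup.mem_bot.1 this) hz1
    · have : g ∈ (⊥ : Subgroup G) := hR1 ▸ ⟨hg, h2 (hL (Subgroup.mem_sup_right ⟨hg, hgd⟩))⟩
      rw [Subgroup.mem_bot] at this
      rw [this]
      exact Subgroup.one_mem _
  · exact hfix g hgd

end TwoPrimes

theorem contradiction : False := by
  classical
  haveI := h.toHyp.fact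
  choose S hS using fun p : Nat.Primes =>
    (haveI := Fact.mk p.2; exists_inv_sylow h.rank.isPGroup h.toHyp.not_dvd φ (p : ℕ))
  refine h.nonsolv (Cfsg.Agent.S0021.result S fun p r => ?_)
  haveI := Fact.mk p.2
  haveI := Fact.mk r.2
  by_cases hpr : p = r
  · subst hpr; rfl
  have hpr' : (p : ℕ) ≠ r := fun e => hpr (Subtype.ext e)
  set P : Subgroup G := (S p : Subgroup G) with hPd
  set R : Subgroup G := (S r : Subgroup G) with hRd
  show (P : Set G) * (R : Set G) = (R : Set G) * (P : Set G)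
  by_cases hdp : (p : ℕ) ∣ Nat.card G
  swap
  · have : P = ⊥ := by
      rw [Subgroup.eq_bot_iff_card, hPd, (S p).card_eq_multiplicity,
        Nat.factorization_eq_zero_of_not_dvd hdp, pow_zero]
    rw [this]; simp
  by_cases hdr : (r : ℕ) ∣ Nat.card G
  swap
  · have : R = ⊥ := by
      rw [Subgroup.eq_bot_iff_card, hRd, (S r).card_eq_multiplicity,
        Nat.factorization_eq_zero_of_not_dvd hdr, pow_zero]
    rw [this]; simp
  have hPR : IsPR (p : ℕ) r (P ⊔ R) := by
    by_cases hp2 : (p : ℕ) = 2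
    · rw [sup_comm]
      exact (h.isPR_sup (P := S r) (R := S p) hpr'.symm (fun e => hpr' (hp2.trans e.symm)) (hS r) (hS p) hdr hdp).swap
    · exact h.isPR_sup hpr' hp2 (hS p) (hS r) hdp hdr
  -- the product set is the join
  have hdisj : P ⊓ R = ⊥ := (IsPGroup.disjoint_of_ne _ _ hpr' _ _ (S p).isPGroup' (S r).isPGroup').eq_bot
  have hcard : Nat.card (P ⊔ R : Subgroup G) ≤ Nat.card P * Nat.card R := by
    refine Nat.le_of_dvd (Nat.mul_pos Nat.card_pos Nat.card_pos) ?_
    rw [← Nat.factorization_le_iff_dvd Nat.card_pos.ne' (Nat.mul_pos Nat.card_pos Nat.card_pos).ne']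
    intro s
    by_cases hs : s.Prime ∧ s ∣ Nat.card (P ⊔ R : Subgroup G)
    · have hle : (Nat.card (P ⊔ R : Subgroup G)).factorization s ≤ (Nat.card G).factorization s :=
        (Nat.factorization_le_iff_dvd Nat.card_pos.ne' Nat.card_pos.ne').2 (Subgroup.card_subgroup_dvd_card _) s
      refine hle.trans ?_
      rw [Nat.factorization_mul Nat.card_pos.ne' Nat.card_pos.ne', Finsupp.add_apply, hPd, hRd,
        (S p).card_eq_multiplicity, (S r).card_eq_multiplicity,
        Nat.Prime.factorization_pow p.2, Nat.Prime.factorization_pow r.2]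
      rcases hPR s hs.1 hs.2 with rfl | rfl
      · simp
      · simp
    · rw [not_and_or] at hs
      rcases hs with hs | hs
      · simp [Nat.factorization_eq_zero_of_not_prime _ hs]
      · simp [Nat.factorization_eq_zero_of_not_dvd hs]
  have key : ∀ X Y : Subgroup G, X ⊓ Y = ⊥ → Nat.card (X ⊔ Y : Subgroup G) ≤ Nat.card X * Nat.card Y →
      (X : Set G) * (Y : Set G) = ((X ⊔ Y : Subgroup G) : Set G) := by
    intro X Y hXY hc
    let f : X × Y → (X ⊔ Y : Subgroup G) := fun z => ⟨z.1 * z.2, Subgroup.mul_mem_sup z.1.2 z.2.2⟩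
    have hf : Function.Injective f := fun z w hzw =>
      Subgroup.mul_injective_of_disjoint (disjoint_iff.2 hXY) (congrArg Subtype.val hzw)
    have hbij : Function.Bijective f := by
      refine (Nat.bijective_iff_injective_and_card f).2 ⟨hf, le_antisymm ?_ (Nat.card_prod X Y ▸ hc)⟩
      exact Nat.card_le_card_of_injective f hf
    ext g
    constructor
    · rintro ⟨x, hx, y, hy, rfl⟩
      exact Subgroup.mul_mem_sup hx hy
    · intro hg
      obtain ⟨z, hz⟩ := hbij.2 ⟨g, hg⟩
      exact ⟨z.1, z.1.2, z.2, z.2.2, congrArg Subtype.val hz⟩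
  rw [key P R hdisj hcard, key R P (inf_comm P R ▸ hdisj) (by rw [sup_comm, mul_comm]; exact hcard),
    sup_comm]

end MinHyp

universe uA uG

/-- Generation by the fixed points, without solvability. -/
theorem le_of_fixed {B : Type uA} {H : Type uG} [Group B] [Group H] [Finite B] [Finite H] {q : ℕ}
    [Fact q.Prime] {ψ : B →* MulAut H} (hB : IsRankTwo B q) (hcop : ¬ q ∣ Nat.card H) {C : Subgroup H}
    (hC : ∀ a : B, a ≠ 1 → ∀ g, ψ a g = g → g ∈ C) : C = ⊤ := by
  refine top_le_iff.1 (le_of_sylow_parts fun s hs _ => ?_)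
  haveI := hs
  obtain ⟨S, hS⟩ := exists_inv_sylow hB.isPGroup hcop ψ s
  haveI := S.isPGroup'.isNilpotent
  refine ⟨(S : Subgroup H), le_inf le_top ?_, by rw [Subgroup.card_top, S.card_eq_multiplicity]⟩
  have h1 := hB.gen_solvable (restrictAct ψ (S : Subgroup H) hS)
    (((Fact.out : q.Prime).coprime_iff_not_dvd.2 fun hd => hcop (hd.trans (Subgroup.card_subgroup_dvd_card _))).symm)
    (C.comap (S : Subgroup H).subtype) (fun a ha g hg => hC a ha g (congrArg Subtype.val hg))
  exact fun g hg => (h1.ge (Subgroup.mem_top (⟨g, hg⟩ : (S : Subgroup H))) :)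

/-- **Coprime action of type `(q, q)` with abelian fixed point groups forces solvability.** -/
theorem isSolvable_of_abelian_fixed {B : Type uA} [Group B] [Finite B] {q : ℕ} [Fact q.Prime]
    (hB : IsRankTwo B q) : ∀ (n : ℕ) {H : Type uG} [Group H] [Finite H] (ψ : B →* MulAut H),
    Nat.card H = n → ¬ q ∣ n →
    (∀ a : B, a ≠ 1 → ∀ x y, ψ a x = x → ψ a y = y → x * y = y * x) → Group.IsSolvable H := by
  intro n
  induction n using Nat.strong_induction_on with
  | _ n ih =>
    intro H _ _ ψ hn hq hab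
    by_contra hns
    by_cases hex : ∃ N : Subgroup H, N.Normal ∧ Inv ψ N ∧ N ≠ ⊥ ∧ N ≠ ⊤
    · obtain ⟨N, hNn, hNi, hNb, hNt⟩ := hex
      haveI := hNn
      have h1 : Group.IsSolvable N := ih (Nat.card N)
        (hn ▸ lt_of_le_of_ne N.card_le_card_group fun e => hNt (N.eq_top_of_card_eq e))
        (restrictAct ψ N hNi) rfl (fun hd => hq (hn ▸ hd.trans N.card_subgroup_dvd_card))
        (fun a ha x y hx hy => Subtype.ext (hab a ha x y (congrArg Subtype.val hx) (congrArg Subtype.val hy)))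
      have h2 : Group.IsSolvable (H ⧸ N) := by
        refine ih (Nat.card (H ⧸ N)) (hn ▸ CfsgLib.FixedPointFree.card_quot_lt hNb)
          (quotAct ψ N hNi) rfl (fun hd => hq (hn ▸ hd.trans N.card_quotient_dvd_card)) ?_
        intro a ha x y hx hy
        obtain ⟨u, rfl, hu⟩ := fixed_quot ψ hB.isPGroup (hn ▸ hq) N hNi (Subgroup.zpowers a) x
          (fun c hc => fix_of_mem_zpowers hc hx)
        obtain ⟨v, rfl, hv⟩ := fixed_quot ψ hB.isPGroup (hn ▸ hq) N hNi (Subgroup.zpowers a) y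
          (fun c hc => fix_of_mem_zpowers hc hy)
        rw [← QuotientGroup.mk_mul, ← QuotientGroup.mk_mul,
          hab a ha u v (hu a (Subgroup.mem_zpowers a)) (hv a (Subgroup.mem_zpowers a))]
      exact hns (Group.isSolvable_of_ker_le_range N.subtype (QuotientGroup.mk' N)
        (by rw [QuotientGroup.ker_mk', Subgroup.range_subtype]))
    push Not at hex
    have hsimple : ∀ N : Subgroup H, N.Normal → Inv ψ N → N = ⊥ ∨ N = ⊤ := fun N h1 h2 => by
      by_cases h3 : N = ⊥
      · exact Or.inl h3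
      · exact Or.inr (hex N h1 h2 h3)
    have hfix : ∀ g : H, (∀ a, ψ a g = g) → g = 1 := by
      intro g hg
      let Z : Subgroup H := Subgroup.center H
      have hgZ : g ∈ Z := by
        rw [Subgroup.mem_center_iff]
        intro x
        have htop := le_of_fixed (ψ := ψ) hB (hn ▸ hq) (C := Subgroup.centralizer ({g} : Set H))
          fun a ha y hy => Subgroup.mem_centralizer_singleton_iff.2 (hab a ha y g hy (hg a))
        exact Subgroup.mem_centralizer_singleton_iff.1 (htop ▸ Subgroup.mem_top x)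
      rcases hsimple Z inferInstance (inv_of_characteristic ψ _) with h1 | h1
      · simpa [Z, h1] using hgZ
      · exact absurd (Group.isSolvable_of_comm fun x y =>
          Subgroup.mem_center_iff.1 (show y ∈ Z from h1 ▸ Subgroup.mem_top y) x) hns
    refine MinHyp.contradiction (φ := ψ) (q := q) ⟨⟨hB, hfix, hab⟩, fun M hMi hMt => ?_, hsimple, hns⟩
    exact ih (Nat.card M) (hn ▸ lt_of_le_of_ne M.card_le_card_group fun e => hMt (M.eq_top_of_card_eq e))
      (restrictAct ψ M hMi) rfl (fun hd => hq (hn ▸ hd.trans M.card_subgroup_dvd_card))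
      (fun a ha x y hx hy => Subtype.ext (hab a ha x y (congrArg Subtype.val hx) (congrArg Subtype.val hy)))

end CfsgLib.RankTwoAbelian
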